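/-
A norm bound from the column orthogonality relations.
-/
import Cfsg.Agent.H17.Ortho

set_option autoImplicit false
open Cfsg H17 Subgroup
open scoped ComplexConjugate

namespace H27.Sm

theorem cc {X : Type*} [Group X] {a b : X} (h : IsConj a b) :
    Nat.card (centralizer ({a} : Set X)) = Nat.card (centralizer ({b} : Set X)) := by
  obtain ⟨c, rfl⟩ := isConj_iff.1 h
  refine Nat.card_congr ⟨fun x => ⟨c * x.1 * c⁻¹, mem_centralizer_singleton_iff.2 ?_⟩,
    fun x => ⟨c⁻¹ * x.1 * c, mem_centralizer_singleton_iff.2 ?_⟩,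
    fun x => Subtype.ext (by simp [mul_assoc]), fun x => Subtype.ext (by simp [mul_assoc])⟩
  · rw [conj_mul, conj_mul, mem_centralizer_singleton_iff.1 x.2]
  · have := mem_centralizer_singleton_iff.1 x.2
    calc _ = c⁻¹ * (x.1 * (c * a * c⁻¹)) * c := by group
      _ = _ := by rw [this]; group

theorem sm {X ι : Type*} [Group X] [Finite X] [Fintype ι] [Fintype (IrrCharacter X)] (g : ι → X)
    (a : ι → ℂ) : ∑ χ : IrrCharacter X, ‖∑ i, χ.1 (g i) * a i‖ ^ 2 ≤
      ∑ i, ‖a i‖ ^ 2 * ((Nat.card {j // IsConj (g i) (g j)} *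
        Nat.card (centralizer ({g i} : Set X)) : ℕ) : ℝ) := by
  classical
  set c : ι → ι → ℝ := fun i j =>
    if IsConj (g i) (g j) then (Nat.card (centralizer ({g i} : Set X)) : ℝ) else 0 with hc
  have c0 : ∀ i j, 0 ≤ c i j := fun i j => by
    simp only [hc]; split_ifs <;> positivity
  have cs : ∀ i j, c i j = c j i := fun i j => by
    simp only [hc]
    by_cases h : IsConj (g i) (g j)
    · rw [if_pos h, if_pos h.symm, cc h]
    · rw [if_neg h, if_neg fun h' => h h'.symm]
  have co : ∀ i j, ∑ χ : IrrCharacter X, χ.1 (g i) * conj (χ.1 (g j)) = (c i j : ℂ) := fun i j => by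
    have := column_orthogonality (g i) (g j)
    simp only [hc]
    split_ifs with h
    · rw [if_pos h] at this
      rw [Complex.ofReal_natCast]
      convert this
    · rw [if_neg h] at this
      rw [Complex.ofReal_zero]
      convert this
  have e1 : ((∑ χ : IrrCharacter X, ‖∑ i, χ.1 (g i) * a i‖ ^ 2 : ℝ) : ℂ) =
      ∑ i, ∑ j, a i * conj (a j) * c i j := by
    push_cast
    simp only [← Complex.mul_conj', map_sum, map_mul, Finset.sum_mul_sum]
    simp only [← co, Finset.mul_sum]
    rw [Finset.sum_comm]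
    refine Finset.sum_congr rfl fun i _ => ?_
    rw [Finset.sum_comm]
    exact Finset.sum_congr rfl fun j _ => Finset.sum_congr rfl fun χ _ => by ring
  have e2 : ∑ χ : IrrCharacter X, ‖∑ i, χ.1 (g i) * a i‖ ^ 2 ≤
      ∑ i, ∑ j, (‖a i‖ ^ 2 * c i j / 2 + ‖a j‖ ^ 2 * c j i / 2) := by
    refine (Real.le_norm_self _).trans ?_
    rw [← Complex.norm_real, e1]
    refine (norm_sum_le _ _).trans (Finset.sum_le_sum fun i _ =>
      (norm_sum_le _ _).trans (Finset.sum_le_sum fun j _ => ?_))
    rw [norm_mul, norm_mul, Complex.norm_conj, Complex.norm_real, Real.norm_of_nonneg (c0 i j),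
      ← cs i j]
    nlinarith [mul_nonneg (c0 i j) (sq_nonneg (‖a i‖ - ‖a j‖))]
  refine e2.trans (le_of_eq ?_)
  simp only [Finset.sum_add_distrib]
  rw [Finset.sum_comm (f := fun i j => ‖a j‖ ^ 2 * c j i / 2), ← Finset.sum_add_distrib]
  refine Finset.sum_congr rfl fun i _ => ?_
  rw [← Finset.sum_add_distrib]
  simp only [add_halves]
  rw [← Finset.mul_sum]
  congr 1
  simp only [hc]
  rw [← Finset.sum_filter, Finset.sum_const, nsmul_eq_mul, 
    Nat.card_eq_fintype_card (α := {j // IsConj (g i) (g j)}),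
    Fintype.card_subtype]
  push_cast
  rfl

end H27.Sm
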