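/-
An index two subgroup by Thompson transfer in the `A5 × A5` configuration.
-/
import Cfsg.Agent.H3.S8h
import Cfsg.Agent.S0111

set_option autoImplicit false
open Subgroup Equiv H3S

namespace H27.D3a

variable {G : Type*} [Group G] {σ t : G} {θ : A5 × A5 →* G}

theorem cc {a b : G} (h : IsConj a b) :
    Nat.card (centralizer ({a} : Set G)) = Nat.card (centralizer ({b} : Set G)) := by
  obtain ⟨c, rfl⟩ := isConj_iff.1 h
  refine Nat.card_congr ⟨fun x => ⟨c * x.1 * c⁻¹, mem_centralizer_singleton_iff.2 ?_⟩,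
    fun x => ⟨c⁻¹ * x.1 * c, mem_centralizer_singleton_iff.2 ?_⟩,
    fun x => Subtype.ext (by simp [mul_assoc]), fun x => Subtype.ext (by simp [mul_assoc])⟩
  · rw [conj_mul, conj_mul, mem_centralizer_singleton_iff.1 x.2]
  · have := mem_centralizer_singleton_iff.1 x.2
    calc _ = c⁻¹ * (x.1 * (c * a * c⁻¹)) * c := by group
      _ = _ := by rw [this]; group

theorem ext2 {K : Subgroup G} {x : G} (xx : x * x = 1) (hn : ∀ k ∈ K, x * k * x ∈ K)
    (hx : x ∉ K) : ∃ L : Subgroup G, (∀ g, g ∈ L ↔ g ∈ K ∨ g * x ∈ K) ∧ K.relIndex L = 2 ∧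
      Nat.card L = Nat.card K * 2 := by
  have c1 : ∀ a, a * x * x = a := fun a => by rw [mul_assoc, xx, mul_one]
  have c2 : ∀ a, x * (x * a) = a := fun a => by rw [← mul_assoc, xx, one_mul]
  have xi : x⁻¹ = x := inv_eq_of_mul_eq_one_right xx
  let L : Subgroup G :=
    { carrier := {g | g ∈ K ∨ g * x ∈ K}
      one_mem' := Or.inl K.one_mem
      mul_mem' := by
        rintro a b (ha | ha) (hb | hb)
        · exact Or.inl (K.mul_mem ha hb)
        · exact Or.inr (by simpa only [mul_assoc] using K.mul_mem ha hb)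
        · exact Or.inr (by simpa only [mul_assoc, c2] using K.mul_mem ha (hn _ hb))
        · exact Or.inl (by simpa only [mul_assoc, c2, xx, mul_one] using K.mul_mem ha (hn _ hb))
      inv_mem' := by
        rintro a (ha | ha)
        · exact Or.inl (K.inv_mem ha)
        · exact Or.inr (by
            simpa only [mul_inv_rev, xi, mul_assoc, c2] using hn _ (K.inv_mem ha)) }
  have r : K.relIndex L = 2 := by
    refine index_eq_two_iff.2 ⟨⟨x, Or.inr (xx ▸ K.one_mem)⟩, fun b => ?_⟩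
    have n : ¬ (b.1 * x ∈ K ∧ b.1 ∈ K) := fun h => hx (by
      simpa only [inv_mul_cancel_left] using K.mul_mem (K.inv_mem h.2) h.1)
    rcases b.2 with h | h
    · exact Or.inr ⟨h, fun h' => n ⟨h', h⟩⟩
    · exact Or.inl ⟨h, fun h' => n ⟨h, h'⟩⟩
  refine ⟨L, fun _ => Iff.rfl, r, ?_⟩
  rw [← (K.subgroupOf L).card_mul_index, ← r,
    Nat.card_congr (subgroupOfEquivOfLe (fun g hg => Or.inl hg : K ≤ L)).toEquiv]
  rfl

theorem memV {x : A5} : x ∈ V4 ↔ x ∈ ({1, e5, f5, e5 * f5} : Finset A5) := by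
  constructor
  · intro h
    induction h using closure_induction with
    | mem x hx => rcases hx with rfl | rfl <;> simp
    | one => simp
    | mul x y _ _ hx hy =>
      simp only [Finset.mem_insert, Finset.mem_singleton] at hx hy
      rcases hx with rfl | rfl | rfl | rfl <;> rcases hy with rfl | rfl | rfl | rfl <;> decide
    | inv x _ hx =>
      simp only [Finset.mem_insert, Finset.mem_singleton] at hx
      rcases hx with rfl | rfl | rfl | rfl <;> decide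
  · have a : e5 ∈ V4 := subset_closure (by simp)
    have b : f5 ∈ V4 := subset_closure (by simp)
    simp only [Finset.mem_insert, Finset.mem_singleton]
    rintro (rfl | rfl | rfl | rfl)
    exacts [V4.one_mem, a, b, V4.mul_mem a b]

theorem cardV : Nat.card V4 = 4 := by
  rw [Nat.card_congr (Equiv.subtypeEquivRight fun x => memV), Nat.card_eq_finsetCard]
  decide

def k3 : A5 := ⟨swap 0 1 * swap 1 3, by rw [Perm.mem_alternatingGroup]; decide⟩
def p5 : A5 := ⟨swap 0 1 * swap 1 2 * swap 2 3 * swap 3 4, by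
  rw [Perm.mem_alternatingGroup]; decide⟩

theorem facts {a : A5} (h : a ∈ V4) : a * a = 1 ∧ a * f5 * a ≠ τ f5 ∧ τ a ∈ V4 ∧
    a * e5 = e5 * a ∧ (a = 1 ∨ IsConj a e5) := by
  rw [memV] at h ⊢
  simp only [Finset.mem_insert, Finset.mem_singleton] at h
  rcases h with rfl | rfl | rfl | rfl
  · exact ⟨by decide, by decide, by decide, by decide, Or.inl rfl⟩
  · exact ⟨by decide, by decide, by decide, by decide, Or.inr (IsConj.refl _)⟩
  · refine ⟨by decide, by decide, by decide, by decide, Or.inr ?_⟩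
    first | exact isConj_iff.2 ⟨k3, by decide⟩ | exact isConj_iff.2 ⟨k3⁻¹, by decide⟩
  · refine ⟨by decide, by decide, by decide, by decide, Or.inr ?_⟩
    first | exact isConj_iff.2 ⟨k3, by decide⟩ | exact isConj_iff.2 ⟨k3⁻¹, by decide⟩

theorem fixP : ∀ a : Perm (Fin 5), swap 3 4 * a * (swap 3 4)⁻¹ = a → a ^ 5 = 1 → a = 1 := by
  decide +kernel

theorem cardF : Fintype.card
    {a : Perm (Fin 5) // Perm.sign a = 1 ∧ swap 3 4 * a * (swap 3 4)⁻¹ = a} = 6 := by
  decide +kernel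

section
variable (h : H2 θ t σ)
include h

theorem fix {a b : A5} : θ (a, b) * t = t * θ (a, b) ↔ τ a = a ∧ τ b = b := by
  have e := h.ta a b
  constructor
  · intro c
    rw [← c, mul_assoc, h.tt, mul_one] at e
    exact Prod.ext_iff.1 (h.inj e.symm)
  · rintro ⟨c, d⟩
    rw [c, d] at e
    conv_lhs => rw [← e]
    rw [mul_assoc, h.tt, mul_one]

theorem n5 {i y : G} (c : IsConj t i) (hy : y * i = i * y) (y5 : y ^ 5 = 1) : y = 1 := by
  obtain ⟨g, rfl⟩ := isConj_iff.1 c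
  obtain ⟨y, rfl⟩ : ∃ y', y = g * y' * g⁻¹ := ⟨g⁻¹ * y * g, by group⟩
  rw [conj_mul, conj_mul, mul_left_inj, mul_right_inj] at hy
  rw [conj_pow, conj_eq_one_iff] at y5
  rw [conj_eq_one_iff]
  have sq : y * y ∈ θ.range := by
    obtain ⟨⟨a, b⟩, e | e | e | e⟩ := h.ct y hy <;> rw [e]
    · exact ⟨_, map_mul _ _ _⟩
    · exact ⟨(a, b) * (τ a, τ b), by rw [map_mul, ← h.ta]; group⟩
    · exact ⟨(a, b) * (b, a), by rw [map_mul, ← h.sa a b]; group⟩
    · refine ⟨(a, b) * (τ b, τ a), ?_⟩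
      rw [map_mul, ← h.ta, ← h.sa a b]
      calc _ = θ (a, b) * t * σ * θ (a, b) * (σ * t) := by group
        _ = _ := by rw [← h.ts]; group
  obtain ⟨⟨a, b⟩, e⟩ : y ∈ θ.range := by
    have : y = (y * y) ^ 3 := by
      rw [← pow_two, ← pow_mul, show 2 * 3 = 5 + 1 from rfl, pow_succ, y5, one_mul]
    rw [this]
    exact pow_mem sq 3
  rw [← e] at hy y5 ⊢
  obtain ⟨c, d⟩ := (fix h).1 hy
  rw [← map_pow, ← map_one θ] at y5
  obtain ⟨e1, e2⟩ := Prod.ext_iff.1 (h.inj y5)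
  have a1 : a = 1 := Subtype.ext (fixP a.1 (congrArg Subtype.val c) (congrArg Subtype.val e1))
  have b1 : b = 1 := Subtype.ext (fixP b.1 (congrArg Subtype.val d) (congrArg Subtype.val e2))
  rw [a1, b1]
  exact map_one θ

theorem c144 : Nat.card (centralizer ({t} : Set G)) ≤ 144 := by
  let F := {a : Perm (Fin 5) // Perm.sign a = 1 ∧ swap 3 4 * a * (swap 3 4)⁻¹ = a}
  have w : ∀ i : Fin 4, Commute (![1, t, σ, t * σ] i) t := fun i => by
    fin_cases i
    exacts [Commute.one_left t, Commute.refl t, h.ts.symm,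
      (Commute.refl t).mul_left h.ts.symm]
  let f : F × F × Fin 4 → centralizer ({t} : Set G) := fun x =>
    ⟨θ (⟨x.1.1, x.1.2.1⟩, ⟨x.2.1.1, x.2.1.2.1⟩) * ![1, t, σ, t * σ] x.2.2,
      mem_centralizer_singleton_iff.2 (Commute.mul_left
        ((fix h).2 ⟨Subtype.ext x.1.2.2, Subtype.ext x.2.1.2.2⟩) (w _))⟩
  have s : Function.Surjective f := by
    rintro ⟨g, hg⟩
    have c : Commute g t := mem_centralizer_singleton_iff.1 hg
    obtain ⟨a, b, i, e⟩ : ∃ a b i, g = θ (a, b) * ![1, t, σ, t * σ] i := by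
      obtain ⟨⟨a, b⟩, e | e | e | e⟩ := h.ct g c
      exacts [⟨a, b, 0, e.trans (mul_one _).symm⟩, ⟨a, b, 1, e⟩, ⟨a, b, 2, e⟩,
        ⟨a, b, 3, e.trans (mul_assoc _ _ _)⟩]
    have c2 := c.mul_left (w i).inv_left
    rw [e, mul_inv_cancel_right] at c2
    obtain ⟨p, q⟩ := (fix h).1 c2
    exact ⟨(⟨a.1, a.2, congrArg Subtype.val p⟩, ⟨b.1, b.2, congrArg Subtype.val q⟩, i),
      Subtype.ext e.symm⟩
  have := Nat.card_le_card_of_surjective f s
  rwa [Nat.card_prod, Nat.card_prod, Nat.card_eq_fintype_card (α := F), cardF,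
    Nat.card_fin] at this

theorem c9 : 9 ∣ Nat.card (centralizer ({t} : Set G)) := by
  have o : orderOf c5 = 3 := orderOf_eq_prime (by decide) (by decide)
  have : ((zpowers c5).prod (zpowers c5)).map θ ≤ centralizer ({t} : Set G) := by
    rintro _ ⟨⟨_, _⟩, ⟨⟨m, rfl⟩, ⟨n, rfl⟩⟩, rfl⟩
    have e : τ c5 = c5 := by decide
    exact mem_centralizer_singleton_iff.2 ((fix h).2 ⟨by rw [map_zpow, e], by rw [map_zpow, e]⟩)
  have d := card_dvd_of_le this
  rwa [card_map_of_injective h.inj, Nat.card_congr (prodEquiv _ _).toEquiv, Nat.card_prod,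
    Nat.card_zpowers, o] at d

theorem cardU : Nat.card (U θ) = 16 := by
  rw [U, card_map_of_injective h.inj, Nat.card_congr (prodEquiv _ _).toEquiv, Nat.card_prod, cardV]

end

theorem d3a [Finite G] (h : H2 θ t σ) (h2 : ¬ 128 ∣ Nat.card G) :
    ∃ N : Subgroup G, N.index = 2 ∧ t ∉ N := by
  have c1 : ∀ a, a * σ * σ = a := fun a => by rw [mul_assoc, h.ss, mul_one]
  obtain ⟨Q, mQ, -, cQ⟩ := ext2 (K := U θ) h.ss
    (by
      rintro _ ⟨⟨a, b⟩, ⟨ha, hb⟩, rfl⟩
      exact ⟨(b, a), ⟨hb, ha⟩, (h.sa a b).symm⟩)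
    (by
      rintro ⟨⟨a, b⟩, ⟨ha, hb⟩, e⟩
      have := h.sa c5 1
      rw [← e, ← map_mul, ← map_mul] at this
      have := (Prod.ext_iff.1 (h.inj this)).2
      simp only [Prod.mk_mul_mk, mul_one, (facts hb).1] at this
      exact absurd this (by decide))
  have tU : ∀ k ∈ U θ, t * k * t ∈ U θ := by
    rintro _ ⟨⟨a, b⟩, ⟨ha, hb⟩, rfl⟩
    exact ⟨(τ a, τ b), ⟨(facts ha).2.2.1, (facts hb).2.2.1⟩, (h.ta a b).symm⟩
  have tQ : t ∉ Q := by
    rw [mQ]
    rintro (⟨⟨a, b⟩, ⟨ha, hb⟩, e⟩ | ⟨⟨a, b⟩, ⟨ha, hb⟩, e⟩)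
    · have := h.ta f5 1
      rw [← e, ← map_mul, ← map_mul] at this
      exact (facts ha).2.1 (Prod.ext_iff.1 (h.inj this)).1
    · have e2 : θ (a, b) * θ (c5, 1) * θ (a, b) = θ (τ 1, τ c5) := by
        rw [← h.ta, ← h.sa c5 1, e]
        conv_lhs => rw [mul_assoc, h.ts]
        rw [← h.ts]
        calc _ = t * σ * (θ (c5, 1) * (σ * t)) := by rw [← h.ts]
          _ = _ := by group
      rw [← map_mul, ← map_mul] at e2
      have := (Prod.ext_iff.1 (h.inj e2)).2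
      simp only [Prod.mk_mul_mk, mul_one, (facts hb).1] at this
      exact absurd this (by decide)
  obtain ⟨S, mS, rS, cS⟩ := ext2 (K := Q) h.tt
    (fun k hk => (mQ _).2 (((mQ _).1 hk).imp (tU _) fun e => by
      have := tU _ e
      rwa [mul_assoc, mul_assoc, ← h.ts, ← mul_assoc, ← mul_assoc] at this)) tQ
  rw [cardU h] at cQ
  rw [cQ] at cS
  have pS : IsPGroup 2 S := IsPGroup.of_card (n := 6) cS
  obtain ⟨P, hP⟩ := pS.exists_le_sylow
  have eP : S = P := by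
    obtain ⟨n, hn⟩ := P.2.exists_card_eq
    refine eq_of_le_of_card_ge hP ?_
    rw [hn, cS]
    by_contra h3
    have : 7 ≤ n := by
      by_contra h4
      exact h3 ((Nat.pow_le_pow_right (by decide) (by omega : n ≤ 6)).trans (by decide))
    exact h2 ((pow_dvd_pow 2 this).trans (hn ▸ card_subgroup_dvd_card _))
  have ot : orderOf t = 2 := orderOf_eq_prime (by rw [pow_two, h.tt])
    fun e => tQ (e ▸ Q.one_mem)
  rcases Cfsg.Agent.S0111.result P Q (eP ▸ fun g hg => (mS g).2 (Or.inl hg)) (eP ▸ rS) t ot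
    (eP ▸ (mS t).2 (Or.inr (h.tt ▸ Q.one_mem))) tQ with ⟨M, -, a, b⟩ | ⟨g, hg⟩
  · exact ⟨M, a, b⟩
  exfalso
  have cj : IsConj t (g * t * g⁻¹) := isConj_iff.2 ⟨g, rfl⟩
  have ii : g * t * g⁻¹ * (g * t * g⁻¹) = 1 := by rw [conj_mul, h.tt]; simp
  generalize g * t * g⁻¹ = i at hg cj ii
  have np : ∀ x : A5, θ (x, p5) ≠ 1 := fun x e =>
    absurd (Prod.ext_iff.1 (h.inj (e.trans (map_one θ).symm))).2 (by decide : p5 ≠ 1)
  have np' : θ (p5, 1) ≠ 1 := fun e =>
    absurd (Prod.ext_iff.1 (h.inj (e.trans (map_one θ).symm))).1 (by decide)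
  have q5 : p5 ^ 5 = 1 := by decide
  have P5 : ∀ x y : A5, x ^ 5 = 1 → y ^ 5 = 1 → θ (x, y) ^ 5 = 1 := fun x y a b => by
    rw [← map_pow, Prod.pow_mk, a, b]; exact map_one θ
  rcases (mQ _).1 hg with ⟨⟨a, b⟩, ⟨ha, hb⟩, rfl⟩ | ⟨⟨a, b⟩, ⟨ha, hb⟩, e⟩
  · rcases (facts ha).2.2.2.2 with rfl | ca
    · exact np' (n5 h cj (by simp [← map_mul]) (P5 _ _ q5 (one_pow 5)))
    rcases (facts hb).2.2.2.2 with rfl | cb
    · exact np 1 (n5 h cj (by simp [← map_mul]) (P5 _ _ (one_pow 5) q5))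
    obtain ⟨x, hx⟩ := isConj_iff.1 ca
    obtain ⟨y, hy⟩ := isConj_iff.1 cb
    have c2 : IsConj (θ (a, b)) (θ (e5, e5)) :=
      isConj_iff.2 ⟨θ (x, y), by
        rw [← map_inv, ← map_mul, ← map_mul]; exact congrArg θ (Prod.ext hx hy)⟩
    have u : U θ ≤ centralizer {θ (e5, e5)} := by
      rintro _ ⟨⟨a, b⟩, ⟨ha, hb⟩, rfl⟩
      rw [mem_centralizer_singleton_iff, ← map_mul, ← map_mul, Prod.mk_mul_mk, Prod.mk_mul_mk,
        (facts ha).2.2.2.1, (facts hb).2.2.2.1]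
    have s : σ ∈ centralizer {θ (e5, e5)} := by
      rw [mem_centralizer_singleton_iff]
      conv_rhs => rw [← h.sa e5 e5, c1]
    have l : Q ≤ centralizer {θ (e5, e5)} := fun k hk => ((mQ k).1 hk).elim (fun e => u e)
      fun e => c1 k ▸ mul_mem (u e) s
    have d := card_dvd_of_le l
    rw [cQ, ← cc (cj.trans c2)] at d
    have := Nat.le_of_dvd Nat.card_pos
      (Nat.Coprime.mul_dvd_of_dvd_of_dvd (by decide) d (c9 h))
    have := c144 h
    omega
  · obtain rfl : i = θ (a, b) * σ := by rw [e, c1]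
    have e2 : θ ((a, b) * (b, a)) = θ 1 := by
      rw [map_mul, map_one, ← h.sa a b, ← ii]; group
    have ab : a * b = 1 := (Prod.ext_iff.1 (h.inj e2)).1
    obtain rfl : b = a⁻¹ := eq_inv_of_mul_eq_one_right ab
    refine np (a * p5 * a⁻¹) (n5 h cj ?_ (P5 _ _ (by rw [conj_pow, q5, mul_one, mul_inv_cancel]) q5))
    have e3 : σ * θ (a * p5 * a⁻¹, p5) = θ (p5, a * p5 * a⁻¹) * σ := by
      rw [← h.sa (a * p5 * a⁻¹) p5, c1]
    rw [mul_assoc (θ (a, a⁻¹)), e3, ← mul_assoc, ← mul_assoc, ← map_mul, ← map_mul]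
    simp [mul_assoc]

end H27.D3a
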