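import Cfsg.Agent.H27.TW
import Cfsg.Agent.H27.FY
import Cfsg.Agent.H27.TV
import Cfsg.Agent.H28.Np3
/-! Classes in a normal subgroup and in an extension; a frame for `O₈⁺(3):S₃`. -/
namespace H27
noncomputable section
open MulAction Cfsg H9 H28 H16 Subgroup
variable {G Ω : Type*} [Group G] [MulAction G Ω]

theorem fr_tb0 {T : H28.TD} {K c w I : Nat} {D : Set G} {ε : Nat → G} {xs : List G} (h : Fr T K c D ε xs) {Ws : List (List Nat)}
    {Ts : List Nat} (hI : (allN T.n fun j => Nat.beq (ent w I j) j) = true)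
    (hc : all2 (plChk T K T.n w w I) (Ws.map Ex.w) Ts = true) :
    TB T.n w (fun i => cj (ε i)) ⊤ (baseI T) (Ws.map (H28.ev xs)) Ts := by
  simp only [allN_iff, beq_iff] at hI
  have a := fr_actT h hc
  rw [List.map_map] at a
  refine ⟨a.imp fun g X a i hi => ⟨(a i hi).1, ?_⟩, fun _ _ => trivial, h.base0.1, fun g _ k => h.base0.2 g fun i hi =>
    mul_inv_eq_iff_eq_mul.1 (cj_inj.1 (k i hi))⟩
  simpa only [subE, hI i hi, hI _ (a i hi).1] using (a i hi).2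

/-- the number of points of `S` fixed by `x` -/
def fxS (S : Set Ω) (x : G) : Nat := {y | y ∈ S ∧ x • y = y}.ncard
theorem fxS_conj {S : Set Ω} {K : Subgroup G} [hK : K.Normal] (hS : ∀ k ∈ K, ∀ y ∈ S, k • y ∈ S) {c x x' : G} (hc : c ∈ K)
    (q : zpowers (c * x * c⁻¹) = zpowers x') (g : G) : fxS S (g⁻¹ * x * g) = fxS S (g⁻¹ * x' * g) := by
  have m := hK.conj_mem' c hc g
  rw [fxS, ← ncard_fixed_conj _ _ fun y => ⟨fun a => by simpa only [inv_smul_smul] using hS _ (inv_mem m) _ a, hS _ m y⟩]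
  replace q : zpowers (g⁻¹ * c * g * (g⁻¹ * x * g) * (g⁻¹ * c * g)⁻¹) = zpowers (g⁻¹ * x' * g) := by
    simpa [map_conj_zpowers, mul_assoc] using congrArg (· :^ g⁻¹) q
  have s : ∀ {a b : G} {y : Ω}, zpowers a = zpowers b → a • y = y → b • y = y := fun e f =>
    zpowers_le_of_mem (H := stabilizer G _) f (e ▸ mem_zpowers _)
  exact congrArg _ (Set.ext fun y => and_congr_right fun _ => ⟨s q, s q.symm⟩)
def fxT (n w a : Nat) (Ts : List Nat) (x g c : Nat) : Bool := decL Ts [g] fun Y => decL Ts [x, g] fun X =>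
  Nat.beq (cnt n fun j => and' (tb a j) (Nat.beq (fnT w (ones w) X j) (fnT w (ones w) Y j))) c
theorem TB.fxT {n w : Nat} {e : Nat → Ω} {A : Subgroup G} {B : List Nat} {gs : List G} {Ts : List Nat} (h : TB n w e A B gs Ts)
    (he : Set.InjOn e {j | j < n}) {a x g c : Nat} (hc : fxT n w a Ts x g c = true) :
    fxS (mset n e a) ((wG gs g)⁻¹ * wG gs x * wG gs g) = c := by
  obtain ⟨Y, a1, hc⟩ := h.rp_decL hc
  obtain ⟨X, a2, hc⟩ := h.rp_decL hc
  simp only [List.map_cons, List.map_nil, List.prod_cons, List.prod_nil, mul_one] at a1 a2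
  have k : ∀ j < n, Nat.beq (fnT w (ones w) X j) (fnT w (ones w) Y j) = true ↔
      ((wG gs g)⁻¹ * wG gs x * wG gs g) • e j = e j := fun j hj => by
    rw [mul_assoc, mul_smul, inv_smul_eq_iff, (a1.fn hj).2, (a2.fn hj).2, beq_iff]
    exact ⟨congrArg e, he (a2.fn hj).1 (a1.fn hj).1⟩
  refine (ncard_image_cnt he _ _ fun y => ?_).trans ((beq_iff _ _).1 hc)
  simp only [and'_eq, Bool.and_eq_true, tb_eq]
  exact ⟨fun ⟨⟨j, hj, b⟩, d⟩ => ⟨j, hj.1, ⟨hj.2, (k j hj.1).2 (b ▸ d)⟩, b⟩,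
    fun ⟨j, hj, b, d⟩ => ⟨⟨j, ⟨hj, b.1⟩, d⟩, d ▸ (k j hj).1 b.2⟩⟩

/-- classes in a kernel from classes in the whole group -/
theorem cls_ext {S : Type*} [Group S] (φ : G →* S) {a b p : Nat} (r : Fin a → G) (R : Fin b → G) (f : Fin b → Fin a)
    (hu : ∀ i σ, ∃ u j, φ u = σ ∧ u * r i * u⁻¹ = R j ∧ f j = i)
    (hn : ∀ i j, ∀ c ∈ φ.ker, zpowers (c * R i * c⁻¹) = zpowers (R j) → i = j)
    (ha : ∀ y ∈ φ.ker, orderOf y = p → ∃ i c, c * y * c⁻¹ = r i) :
    (∀ y ∈ φ.ker, orderOf y = p → ∃ j, ∃ c ∈ φ.ker, c * y * c⁻¹ = R j) ∧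
      ∀ i j c, zpowers (c * r i * c⁻¹) = zpowers (r j) → i = j := by
  refine ⟨fun y hy o => ?_, fun i j c q => ?_⟩
  · obtain ⟨i, c, e⟩ := ha y hy o
    obtain ⟨u, j, a, b, -⟩ := hu i (φ c)⁻¹
    exact ⟨j, u * c, by simp [a], by rw [← b, ← e]; group⟩
  · obtain ⟨u, k, a, b, rfl⟩ := hu i (φ c)
    obtain ⟨v, l, d, e, rfl⟩ := hu j 1
    refine congrArg f (hn k l (v * c * u⁻¹) (by simp [a, d]) ?_)
    rw [← b, ← e, ← map_conj_zpowers v, ← q, map_conj_zpowers]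
    congr 1; group
theorem classes_in {M : Type*} [Group M] {K : Subgroup G} (e : G ≃* M) {L : Subgroup M} (hL : K.map (e : G →* M) = L)
    {k p : Nat} (hp : p.Prime) (r : Fin k → G) (hr : ∀ i, r i ∈ K) (ho : ∀ i, orderOf (r i) = p)
    (hn : ∀ i j c, zpowers (c * r i * c⁻¹) = zpowers (r j) → i = j)
    (ha : ∀ y ∈ K, orderOf y = p → ∃ i c, c * y * c⁻¹ = r i) :
    ∃ Y : Fin k → Subgroup M, (∀ i, Y i ≤ L ∧ Nat.card (Y i) = p) ∧ (∀ i j, (∃ g : M, Y i :^ g = Y j) → i = j) ∧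
      ∀ X : Subgroup M, X ≤ L → Nat.card X = p → ∃ i, ∃ g : M, X :^ g = Y i := by
  subst hL
  refine ⟨fun i => zpowers (e (r i)), fun i => ⟨zpowers_le_of_mem ⟨_, hr i, rfl⟩, ?_⟩,
    fun i j ⟨g, q⟩ => hn i j (e.symm g) ?_, fun X hL hX => ?_⟩
  · rw [card_zpowers, e.orderOf_eq, ho]
  · simpa [map_conj_zpowers, MonoidHom.map_zpowers] using congrArg (Subgroup.map e.symm.toMonoidHom) q
  · obtain ⟨y, a, rfl⟩ := exists_gen hp hX
    obtain ⟨y, hy, rfl⟩ := hL (mem_zpowers y)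
    obtain ⟨i, c, q⟩ := ha y hy ((e.orderOf_eq y).symm.trans a)
    exact ⟨i, e c, by simp [map_conj_zpowers, ← q]⟩

def s8 : List (Equiv.Perm (Fin 3)) := List.replicate 9 (tau 0) ++ [tau 1]
theorem k8_cd : ∀ g < 10, tau (cd k8Z k8B (k8.pi (g, []))) = s8.getD g 1 := by decide +kernel
theorem o8_frame : ∃ (H : Type) (_ : Group H) (D : Set H) (ε : Nat → H) (xs : List H) (φ : H →* Equiv.Perm (Fin 3)),
    Fr k8 12 29713078886400 D ε xs ∧ xs.map φ = s8 ∧ Rep k8 ε k8Z {y | y ∈ D ∧ φ y = tau 0} ∧ Function.Surjective φ ∧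
      Nonempty (φ.ker ≃* POmega (ZMod 3) (quadFormPlus 4 (ZMod 3))) ∧ generalizedFittingSubgroup H = φ.ker := by
  have h := H28.m24
  haveI := h.fin
  obtain ⟨ε, xs, f⟩ := h.fm
  obtain ⟨l, x⟩ := h.line (f.pv_mem (by decide)) (f.pv_mem (by decide)) (f.np h.lv.cls t24_np).1
  obtain ⟨ε', t, e, -⟩ := f.subF (A := Nb E24 [pv xs (0, []), pv xs (1, [])]) k8_chk k8_act
    (f.rep_nb (l := [(0, []), (1, [])]) (by decide) f.rep) k8_A
  obtain ⟨φ, s, -, w, r⟩ := t.tri (cl_subL _) k8_rch k8_tri (p := (0, [])) (q := (9, [])) (by decide) ⟨k8_v.1, k8_v.2.2.1⟩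
  obtain ⟨z, ψ, s', ⟨q⟩, k⟩ := x.equiv (MulEquiv.subgroupCongr (l.gen.symm.trans e))
  have c6 : Nat.card (Equiv.Perm (Fin 3)) = 6 := by simp [Fintype.card_perm, Nat.factorial]
  have c : ∀ χ : cl (k8P.map (pv xs)) →* Equiv.Perm (Fin 3), Function.Surjective χ →
      Nat.card χ.ker * 6 = Nat.card (cl (k8P.map (pv xs))) := fun χ a => by
    rw [← χ.ker.card_mul_index, index_ker, MonoidHom.range_eq_top.2 a, card_top, c6]
  have d := (Nat.card_congr q.toEquiv).trans card_o8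
  have u := H22.POmega_isSimpleGroup _ (H22.qPlus_nondeg (F := ZMod 3) 4) (by simp)
  rw [H22.coe_qPlus] at u
  have := q.isSimpleGroup
  have le : ψ.ker = φ.ker := eq_of_le_of_card_ge (by
    rcases (inferInstance : (φ.comp ψ.ker.subtype).ker.Normal).eq_bot_or_eq_top with b | b
    · have := Nat.card_le_card_of_injective _ ((MonoidHom.ker_eq_bot_iff _).1 b)
      omega
    · exact fun g hg => b.ge (mem_top ⟨g, hg⟩)) (by have := c _ s; have := c _ s'; omega)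
  refine ⟨_, inferInstance, _, ε', _, φ, ⟨t, tok_of t.ok (by decide +kernel), cl_subL _, z, by have := c _ s'; omega,
    fun a ha b hb => isConj_iff.2 (t.cls (p := (0, [])) (r := 6) (by decide +kernel) a ha b hb)⟩, ?_, r, s, le ▸ ⟨q⟩, le ▸ k⟩
  refine List.ext_getElem (by rw [List.length_map, t.len]; rfl) fun g a b => ?_
  rw [List.getElem_map, ← List.getD_eq_getElem _ 1 b, ← k8_cd g b, ← w (g, []) b, pv_nil, List.getD_eq_getElem]

end
end H27
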