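/-
Groups of order 12096 whose element orders divide 7, 8 or 12: the simple subgroup of index two
(orders of small simple groups taken as hypotheses).
-/
import Mathlib

set_option autoImplicit false
open Subgroup

universe u

namespace H27.Rd

variable {G : Type u} [Group G] [Finite G]

omit [Finite G] in
theorem c7 (hs : ∀ g : G, g^7 = 1 ∨ g^8 = 1 ∨ g^12 = 1) {x y : G} (hx : orderOf x = 7)
    (h : Commute x y) : y^7 = 1 := by
  have a : ∀ g : G, g^7 = 1 ∨ g^24 = 1 := fun g => (hs g).imp_right fun h => by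
    rcases h with h | h
    · rw [show 24 = 8 * 3 from rfl, pow_mul, h, one_pow]
    · rw [show 24 = 12 * 2 from rfl, pow_mul, h, one_pow]
  have x7 : x^7 = 1 := hx ▸ pow_orderOf_eq_one x
  rcases a y with h1 | h1
  · exact h1
  rcases a (x * y) with h2 | h2
  · rwa [h.mul_pow, x7, one_mul] at h2
  · rw [h.mul_pow, h1, mul_one, ← orderOf_dvd_iff_pow_eq_one, hx] at h2
    exact absurd h2 (by decide)

theorem fx {p k : ℕ} [Fact p.Prime] {y : G} (hy : y^(p^k) = 1) (Q : Subgroup G)
    (hQ : y ∈ normalizer (Q : Set G)) :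
    Nat.card Q ≡ Nat.card (Q ⊓ centralizer {y} : Subgroup G) [MOD p] := by
  set y' : normalizer (Q : Set G) := ⟨y, hQ⟩
  have hp : IsPGroup p (zpowers y') := by
    rintro ⟨_, n, rfl⟩
    refine ⟨k, Subtype.ext (Subtype.ext ?_)⟩
    show (y ^ n) ^ (p ^ k) = 1
    rw [← zpow_natCast, ← zpow_mul, mul_comm, zpow_mul, zpow_natCast, hy, one_zpow]
  have e : Nat.card (MulAction.fixedPoints (zpowers y') Q) =
      Nat.card (Q ⊓ centralizer {y} : Subgroup G) := by
    refine Nat.card_congr ⟨fun q => ⟨q.1.1, q.1.2, mem_centralizer_singleton_iff.2 ?_⟩,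
      fun q => ⟨⟨q.1, q.2.1⟩, ?_⟩, fun _ => rfl, fun _ => rfl⟩
    · have : y * q.1.1 * y⁻¹ = q.1.1 := congrArg Subtype.val (q.2 ⟨y', mem_zpowers _⟩)
      rw [mul_inv_eq_iff_eq_mul] at this
      exact this.symm
    · rintro ⟨_, n, rfl⟩
      have c : Commute q.1 y := mem_centralizer_singleton_iff.1 q.2.2
      refine Subtype.ext ?_
      show y ^ n * q.1 * (y ^ n)⁻¹ = q.1
      rw [← (c.zpow_right n).eq, mul_inv_cancel_right]
  exact e ▸ hp.card_modEq_card_fixedPoints Q

theorem f7 (hs : ∀ g : G, g^7 = 1 ∨ g^8 = 1 ∨ g^12 = 1) {y : G} (hy : orderOf y = 7)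
    (Q : Subgroup G) (hQ : y ∈ normalizer (Q : Set G)) (h7 : ¬ 7 ∣ Nat.card Q) :
    Nat.card Q % 7 = 1 := by
  haveI : Fact (Nat.Prime 7) := ⟨by norm_num⟩
  have h := fx (p := 7) (k := 1) (y := y) (by rw [pow_one, ← hy, pow_orderOf_eq_one]) Q hQ
  have : (Q ⊓ centralizer {y} : Subgroup G) = ⊥ := by
    refine eq_bot_iff.2 fun z hz => ?_
    have c : Commute z y := mem_centralizer_singleton_iff.1 hz.2
    have h1 := orderOf_dvd_iff_pow_eq_one.2 (c7 hs hy c.symm)
    rcases (Nat.dvd_prime (by norm_num)).1 h1 with h2 | h2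
    · exact orderOf_eq_one_iff.1 h2
    · exact absurd (h2 ▸ Q.orderOf_dvd_natCard hz.1) h7
  rw [this, card_bot] at h
  exact h

theorem syl {p k m : ℕ} [hp : Fact p.Prime] (P : Sylow p G) (hn : Nat.card G = p ^ k * m)
    (hm : ¬ p ∣ m) : Nat.card (P : Subgroup G) = p ^ k := by
  have m0 : m ≠ 0 := fun h => hm (h ▸ dvd_zero p)
  rw [P.card_eq_multiplicity, hn, Nat.factorization_mul (pow_ne_zero _ hp.out.ne_zero) m0,
    hp.out.factorization_pow, Finsupp.add_apply, Finsupp.single_eq_same,
    Nat.factorization_eq_zero_of_not_dvd hm, add_zero]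

theorem no9 (hs : ∀ g : G, g^7 = 1 ∨ g^8 = 1 ∨ g^12 = 1) (N : Subgroup G) [N.Normal]
    (h7 : 7 ∣ N.index) {m : ℕ} (hn : Nat.card N = 3 ^ 2 * m) (hm : ¬ 3 ∣ m) : False := by
  haveI : Fact (Nat.Prime 7) := ⟨by norm_num⟩
  obtain ⟨Q⟩ : Nonempty (Sylow 3 N) := inferInstance
  have hQ := syl Q hn hm
  have h1 := Q.normalizer_sup_eq_top
  set Q' := (Q : Subgroup N).map N.subtype
  have h2 : Nat.card Q' = 9 := (card_map_of_injective N.subtype_injective).trans hQ
  have h3 : N.relIndex (normalizer (Q' : Set G)) = N.index := by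
    rw [← relIndex_sup_right, h1, relIndex_top_right]
  obtain ⟨y, hy⟩ := exists_prime_orderOf_dvd_card' (G := normalizer (Q' : Set G)) 7
    ((h3 ▸ h7).trans (relIndex_dvd_card _ _))
  have := f7 hs (y := y) ((orderOf_coe y).trans hy) Q' y.2 (by rw [h2]; decide)
  rw [h2] at this
  exact absurd this (by decide)

theorem no8 (N : Subgroup G) [N.Normal] (h : Nat.card G = 4032) (hn : Nat.card N = 8)
    (hC : centralizer (N : Set G) ≤ N) : False := by
  classical
  obtain ⟨R⟩ : Nonempty (Sylow 3 G) := inferInstance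
  have hR : Nat.card (R : Subgroup G) = 3 ^ 2 := syl R (m := 448) h (by decide)
  letI : MulAction (R : Subgroup G) N :=
    MulAction.compHom N ((MulAut.conjNormal (H := N)).comp (R : Subgroup G).subtype)
  haveI := Fintype.ofFinite (R : Subgroup G)
  haveI := fun g : (R : Subgroup G) => Fintype.ofFinite (MulAction.fixedBy N g)
  haveI := Fintype.ofFinite (Quotient (MulAction.orbitRel (R : Subgroup G) N))
  have b := MulAction.sum_card_fixedBy_eq_card_orbits_mul_card_group (R : Subgroup G) N
  have e : ∀ g : (R : Subgroup G), Fintype.card (MulAction.fixedBy N g) =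
      2 + if g = 1 then 6 else 0 := by
    intro g
    rw [← Nat.card_eq_fintype_card]
    have e1 : Nat.card (MulAction.fixedBy N g) =
        Nat.card (N ⊓ centralizer {(g : G)} : Subgroup G) := by
      refine Nat.card_congr ⟨fun q => ⟨q.1.1, q.1.2, mem_centralizer_singleton_iff.2 ?_⟩,
        fun q => ⟨⟨q.1, q.2.1⟩, ?_⟩, fun _ => rfl, fun _ => rfl⟩
      · have : g * q.1.1 * (g : G)⁻¹ = q.1.1 := congrArg Subtype.val q.2
        rw [mul_inv_eq_iff_eq_mul] at this
        exact this.symm
      · have c : Commute q.1 (g : G) := mem_centralizer_singleton_iff.1 q.2.2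
        refine Subtype.ext ?_
        show g * q.1 * (g : G)⁻¹ = q.1
        rw [← c.eq, mul_inv_cancel_right]
    rw [e1]
    split_ifs with hg
    · rw [hg, inf_eq_left.2, hn]
      intro z _
      exact mem_centralizer_singleton_iff.2 (by simp)
    · have g9 : (g : G) ^ (3 ^ 2) = 1 := by
        rw [← hR, ← coe_pow, pow_card_eq_one', coe_one]
      have m := fx g9 N (le_normalizer_of_normal (mem_top _))
      have d := card_dvd_of_le (inf_le_left (a := N) (b := centralizer {(g : G)}))
      have ne : Nat.card (N ⊓ centralizer {(g : G)} : Subgroup G) ≠ 8 := by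
        intro h8
        have e2 := eq_of_le_of_card_ge (inf_le_left (a := N) (b := centralizer {(g : G)}))
          (by rw [h8, hn])
        have hg2 : (g : G) ∈ N := hC fun z hz =>
          mem_centralizer_singleton_iff.1 (e2.ge hz).2
        have d1 := hn ▸ N.orderOf_dvd_natCard hg2
        have d2 := Nat.dvd_gcd d1 (orderOf_dvd_iff_pow_eq_one.2 g9)
        exact hg (Subtype.ext (orderOf_eq_one_iff.1 (Nat.dvd_one.1 d2)))
      rw [hn] at m d
      generalize Nat.card (N ⊓ centralizer {(g : G)} : Subgroup G) = c at m d ne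
      have := Nat.le_of_dvd (by decide) d
      interval_cases c <;> first | rfl | exact absurd rfl ne | exact absurd m (by decide) | exact absurd d (by decide)
  simp only [e, Finset.sum_add_distrib, Finset.sum_const, Finset.sum_ite_eq', Finset.mem_univ,
    if_true, Finset.card_univ, ← Nat.card_eq_fintype_card, hR, smul_eq_mul] at b
  omega

theorem core
    (ho : ∀ (X : Type u) [Group X] [Finite X] [IsSimpleGroup X], ¬ (Nat.card X).Prime →
      Nat.card X < 6000 → Nat.card X ∈ [60, 168, 360, 504, 660, 1092, 2448, 2520, 3420, 4080, 5616])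
    (h12 : ∀ (X : Type u) [Group X] [Finite X] [IsSimpleGroup X], Nat.card X ≠ 12096)
    (hs : ∀ g : G, g^7 = 1 ∨ g^8 = 1 ∨ g^12 = 1)
    (A : ∀ N : Subgroup G, N.Normal → ¬ 7 ∣ N.index → N = ⊤)
    (h : Nat.card G = 12096 ∨ Nat.card G = 6048 ∨ Nat.card G = 4032 ∨ Nat.card G = 2016) :
    IsSimpleGroup G ∧ Nat.card G = 6048 := by
  haveI : Fact (Nat.Prime 7) := ⟨by norm_num⟩
  haveI : Nontrivial G := Finite.one_lt_card_iff_nontrivial.1 (by omega)
  obtain ⟨x, hx⟩ := exists_prime_orderOf_dvd_card' (G := G) 7 (by omega)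
  obtain ⟨N, ⟨hN, hT⟩, hm⟩ := (wellFounded_gt (α := Subgroup G)).has_min
    {N | N.Normal ∧ N ≠ ⊤} ⟨⊥, inferInstance, bot_ne_top⟩
  have hmax : ∀ M : Subgroup G, M.Normal → N ≤ M → M = N ∨ M = ⊤ := fun M h1 h2 =>
    (em (M = ⊤)).symm.imp_left fun h3 => (h2.eq_or_lt.resolve_right (hm M ⟨h1, h3⟩)).symm
  have i7 : 7 ∣ N.index := by_contra fun h => hT (A N hN h)
  haveI : Nontrivial (G ⧸ N) := Finite.one_lt_card_iff_nontrivial.1
    ((by decide : 1 < 7).trans_le (Nat.le_of_dvd Nat.card_pos i7))
  haveI : IsSimpleGroup (G ⧸ N) := ⟨fun M hM => by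
    have hs := QuotientGroup.mk'_surjective N
    rw [← map_comap_eq_self_of_surjective hs M]
    rcases hmax (M.comap (QuotientGroup.mk' N)) inferInstance
      ((QuotientGroup.ker_mk' N).ge.trans (ker_le_comap _ _)) with h | h
    · left
      rw [h, Subgroup.map_eq_bot_iff, QuotientGroup.ker_mk']
    · right
      rw [h, map_top_of_surjective _ hs]⟩
  have e := N.card_mul_index
  have o1 := ho (G ⧸ N)
  have o2 := h12 (G ⧸ N)
  rw [← index_eq_card] at o1 o2
  have n7 : ¬ 7 ∣ Nat.card N := fun h1 => by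
    have := (mul_dvd_mul h1 i7).trans e.dvd
    omega
  have m7 := f7 hs hx N (le_normalizer_of_normal (mem_top _)) n7
  have k9 := fun m => no9 hs N i7 (m := m)
  by_cases hp : N.index.Prime
  · rw [← (Nat.prime_dvd_prime_iff_eq (by norm_num) hp).1 i7] at e
    exact (k9 32 (by omega) (by decide)).elim
  by_cases hl : N.index < 6000
  · have o3 := o1 hp hl
    simp only [List.mem_cons, List.not_mem_nil, or_false] at o3
    have o4 : N.index = 168 ∨ N.index = 504 ∨ N.index = 1092 ∨ N.index = 2520 := by omega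
    rcases o4 with o | o | o | o <;> rw [o] at e
    · exact (k9 4 (by omega) (by decide)).elim
    · have hn : Nat.card N = 8 := by omega
      refine (no8 N (by omega) hn ?_).elim
      rcases hmax (centralizer (N : Set G) ⊔ N) inferInstance le_sup_right with h1 | h1
      · exact le_sup_left.trans h1.le
      · have h2 : (centralizer (N : Set G)).relIndex N = (centralizer (N : Set G)).index := by
          rw [← relIndex_sup_left, h1, relIndex_top_right]
        have h3 := A (centralizer (N : Set G)) inferInstance fun h4 =>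
          n7 ((h2 ▸ h4).trans (relIndex_dvd_card _ _))
        have h4 : N = ⊥ := eq_bot_iff.2 fun z hz => by
          have c : Commute z x := (h3.ge (mem_top x) : x ∈ centralizer (N : Set G)) z hz
          have d2 := Nat.dvd_gcd (hn ▸ N.orderOf_dvd_natCard hz)
            (orderOf_dvd_iff_pow_eq_one.2 (c7 hs hx c.symm))
          exact orderOf_eq_one_iff.1 (Nat.dvd_one.1 d2)
        rw [h4, card_bot] at hn
        exact absurd hn (by decide)
    · omega
    · omega
  · have n1 : Nat.card N = 1 := by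
      by_contra h1
      have : 8 * 6000 ≤ Nat.card N * N.index := Nat.mul_le_mul (by omega) (by omega)
      omega
    rw [n1, one_mul] at e
    rw [card_eq_one.1 n1] at hmax
    exact ⟨⟨fun M hM => hmax M hM bot_le⟩, by omega⟩

theorem red'
    (ho : ∀ (X : Type u) [Group X] [Finite X] [IsSimpleGroup X], ¬ (Nat.card X).Prime →
      Nat.card X < 6000 → Nat.card X ∈ [60, 168, 360, 504, 660, 1092, 2448, 2520, 3420, 4080, 5616])
    (h12 : ∀ (X : Type u) [Group X] [Finite X] [IsSimpleGroup X], Nat.card X ≠ 12096)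
    (h : Nat.card G = 12096) (hs : ∀ g : G, g^7 = 1 ∨ g^8 = 1 ∨ g^12 = 1) :
    ∃ K : Subgroup G, K.Normal ∧ IsSimpleGroup K ∧ Nat.card K = 6048 ∧
      centralizer (K : Set G) = ⊥ := by
  haveI hp : Fact (Nat.Prime 7) := ⟨by norm_num⟩
  obtain ⟨P⟩ : Nonempty (Sylow 7 G) := inferInstance
  have hP : Nat.card (P : Subgroup G) = 7 := syl P (k := 1) (m := 1728) h (by decide)
  set K := normalClosure ((P : Subgroup G) : Set G)
  have hPK : (P : Subgroup G) ≤ K := le_normalClosure
  have A : ∀ N : Subgroup K, N.Normal → ¬ 7 ∣ N.index → N = ⊤ := by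
    intro N _ hi
    have : K ≤ N.map K.subtype := by
      refine (closure_le _).2 fun x hx => ?_
      have hxK : x ∈ K := subset_closure hx
      obtain ⟨a, ha, hc⟩ := Group.mem_conjugatesOfSet_iff.1 hx
      have hx1 : orderOf (⟨x, hxK⟩ : K) ∣ 7 := by
        obtain ⟨c, rfl⟩ := isConj_iff.1 hc
        rw [orderOf_dvd_iff_pow_eq_one, Subtype.ext_iff, coe_pow, conj_pow,
          orderOf_dvd_iff_pow_eq_one.1 (hP ▸ Subgroup.orderOf_dvd_natCard _ ha)]
        simp
      refine ⟨⟨x, hxK⟩, ?_, rfl⟩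
      have hcop : (orderOf (⟨x, hxK⟩ : K)).Coprime N.index :=
        ((hp.out.coprime_iff_not_dvd).2 hi).coprime_dvd_left hx1
      obtain ⟨m, hm⟩ := exists_pow_eq_self_of_coprime hcop.symm
      rw [← hm]
      exact N.pow_mem (N.pow_index_mem _) _
    exact eq_top_iff.2 fun x _ => by
      obtain ⟨y, hy, e⟩ := this x.2
      rwa [← (Subtype.ext e : y = x)]
  obtain ⟨x, hx⟩ := exists_prime_orderOf_dvd_card' (G := (P : Subgroup G)) 7 hP.symm.dvd
  have hx' : orderOf (x : G) = 7 := (orderOf_coe x).trans hx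
  have hC : centralizer ((P : Subgroup G) : Set G) ≤ P := by
    haveI := isCyclic_of_prime_card hP
    have h1 : (P : Subgroup G) ≤ centralizer ((P : Subgroup G) : Set G) := le_centralizer _
    refine (P.3 (fun g => ⟨1, Subtype.ext ?_⟩) h1).le
    exact c7 hs hx' (g.2 x x.2)
  have i6 : K.index ∣ 6 := by
    haveI := isCyclic_of_prime_card hP
    have h1 := P.normalizer_sup_eq_top' hPK
    have h2 : K.relIndex (normalizer ((P : Subgroup G) : Set G)) = K.index := by
      rw [← relIndex_sup_right, P.coe_coe, h1, relIndex_top_right]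
    have h3 := (P : Subgroup G).normalizerMonoidHom.ker.index_dvd_card
    have h4 := (index_ker (P : Subgroup G).normalizerMonoidHom).dvd.trans
      (card_subgroup_dvd_card _)
    rw [IsCyclic.card_mulAut, hP, normalizerMonoidHom_ker] at h4
    exact (h2 ▸ relIndex_dvd_of_le_left _ (hC.trans hPK)).trans h4
  have e := K.card_mul_index
  have i7 := Nat.le_of_dvd (by decide) i6
  obtain ⟨hK, hc⟩ := core (G := K) ho h12
    (fun g => by simpa only [Subtype.ext_iff, coe_pow, coe_one] using hs g) A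
    (by
      generalize K.index = c at e i6 i7
      interval_cases c <;> omega)
  refine ⟨K, inferInstance, hK, hc, eq_bot_iff.2 fun z hz => ?_⟩
  have zK : z ∈ K := hPK (hC (centralizer_le hPK hz))
  have zc : (⟨z, zK⟩ : K) ∈ center K := mem_center_iff.2 fun g => Subtype.ext (hz g g.2)
  rcases hK.eq_bot_or_eq_top_of_normal (center K) inferInstance with h1 | h1
  · exact congrArg Subtype.val (h1.le zc)
  · obtain ⟨t, ht⟩ := exists_prime_orderOf_dvd_card' (G := K) 2 (by omega)
    have c : Commute (x : G) t := congrArg Subtype.val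
      (mem_center_iff.1 (h1.ge (mem_top t)) ⟨x, hPK x.2⟩)
    have := orderOf_dvd_iff_pow_eq_one.2 (c7 hs hx' c)
    rw [orderOf_coe, ht] at this
    exact absurd this (by decide)

end H27.Rd
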