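import Cfsg.Agent.H27.SA
/-! The cocycle of the triple cover of `Fi24`: checks. -/
set_option maxRecDepth 100000
set_option Elab.async false
namespace H27
open H28
noncomputable section
/-- the value in `ZMod 3` held by two bit planes -/
def z3v (A B j : Nat) : ZMod 3 := (if A.testBit j then 1 else 0) - (if B.testBit j then 1 else 0)
def scC (g j : Nat) : ZMod 3 := z3v (nth 0 scA g) (nth 0 scB g) j
def scAct (g : Nat) (x : Nat × ZMod 3) : Nat × ZMod 3 := (fnW t24.Ns [g] x.1, scC g x.1 - x.2)
def scActW (w : List Nat) (x : Nat × ZMod 3) : Nat × ZMod 3 := w.foldr scAct x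
def scS (u : List Nat) (A B : Nat) : Prop :=
  ∀ j a, scActW u (j, a) = (fnW t24.Ns u j, (-1) ^ u.length * (z3v A B j + a))
def scAdd (a b p q : Nat) (k : Nat → Nat → Bool) : Bool :=
  force (H28.dif a b) fun a' => force (H28.dif b a) fun b' => force (H28.dif p q) fun p' => force (H28.dif q p) fun q' =>
    force (Nat.xor (Nat.lor a' q') (Nat.lor b' p')) fun t =>
      force (Nat.xor (Nat.lor a' p') t) fun x => force (Nat.xor (Nat.lor b' q') t) fun y => k x y
theorem scAdd_eq (a b p q : Nat) (k : Nat → Nat → Bool) : ∃ x y, scAdd a b p q k = k x y ∧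
    ∀ j, z3v x y j = -(z3v a b j + z3v p q j) := by
  refine ⟨_, _, by simp only [scAdd, force_eq]; rfl, fun j => ?_⟩
  have e1 : ∀ x y : Nat, (Nat.xor x y).testBit j = (x.testBit j ^^ y.testBit j) := fun x y => Nat.testBit_xor x y j
  have e2 : ∀ x y : Nat, (Nat.lor x y).testBit j = (x.testBit j || y.testBit j) := fun x y => Nat.testBit_or x y j
  simp only [z3v, e1, e2, H28.testBit_dif]
  cases a.testBit j <;> cases b.testBit j <;> cases p.testBit j <;> cases q.testBit j <;> decide
def scRun (w : List Nat) : Nat → Nat → (Nat → Nat → Bool) → Bool :=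
  List.rec (motive := fun _ => Nat → Nat → (Nat → Nat → Bool) → Bool) (fun A B k => k A B)
    (fun g _ ih A B k => force (appW t24.Ns [g] A) fun a => force (appW t24.Ns [g] B) fun b =>
      scAdd a b (nth 0 scA g) (nth 0 scB g) fun x y => ih x y k) w
theorem scS_nil : scS [] 0 0 := fun j a => by simp [scActW, fnW_nil, z3v]
theorem scRun_spec (w : List Nat) : ∀ (u : List Nat) (A B : Nat) (k : Nat → Nat → Bool), scS u A B → scRun w A B k = true →
    ∃ A' B', scS (u ++ w) A' B' ∧ k A' B' = true := by
  induction w with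
  | nil => exact fun u A B k h e => ⟨A, B, by simpa using h, e⟩
  | cons g t ih =>
    intro u A B k h e
    obtain ⟨x, y, e1, e2⟩ := scAdd_eq (appW t24.Ns [g] A) (appW t24.Ns [g] B) (nth 0 scA g) (nth 0 scB g) fun x y => scRun t x y k
    have e' : scRun (g :: t) A B k = scRun t x y k := by
      rw [← e1]
      change force _ (fun a => force _ fun b => scAdd a b _ _ fun x y => scRun t x y k) = _
      rw [force_eq, force_eq]
    rw [List.append_cons]
    refine ih _ x y k (fun j a => ?_) (e' ▸ e)
    have : scActW (u ++ [g]) (j, a) = scActW u (scAct g (j, a)) := by simp [scActW, List.foldr_append]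
    rw [this, scAct, h, fnW_append, e2, List.length_append, List.length_singleton, pow_succ]
    have z : z3v (appW t24.Ns [g] A) (appW t24.Ns [g] B) j = z3v A B (fnW t24.Ns [g] j) := by
      simp only [z3v, testBit_appW t24M.ok]
    rw [z, scC]
    exact Prod.ext rfl (by ring)
def scChk (R : List (List Nat)) : Bool := allL R fun w => scRun w 0 0 Nat.beq
theorem scChk_spec {R : List (List Nat)} (h : scChk R = true) : ∀ w ∈ R, ∀ j a,
    scActW w (j, a) = (fnW t24.Ns w j, (-1) ^ w.length * a) := fun w hw j a => by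
  obtain ⟨A, B, s, e⟩ := scRun_spec w [] 0 0 _ scS_nil ((allL_iff _ _).1 h w hw)
  rw [(beq_iff _ _).1 e] at s
  simpa [z3v] using s j a
theorem sc1 : scChk (r79.take 20) = true := by decide +kernel
theorem sc2 : scChk ((r79.drop 20).take 15) = true := by decide +kernel
theorem sc3 : scChk ((r79.drop 35).take 15) = true := by decide +kernel
theorem sc4 : scChk ((r79.drop 50).take 14) = true := by decide +kernel
theorem sc5 : scChk ((r79.drop 64).take 14) = true := by decide +kernel
theorem sc6 : scChk (r79.drop 78) = true := by decide +kernel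
def scRho : List Nat := pwW 2 (cat (H28.cjW f24v 2) [1])
theorem sc7 : scRun scRho 0 0 (fun A B => and' (Nat.beq A (ones 306936)) (Nat.beq B 0)) = true := by decide +kernel
theorem sc_r79 : ∀ w ∈ r79, ∀ j a, scActW w (j, a) = (fnW t24.Ns w j, (-1) ^ w.length * a) := fun w hw => by
  rcases (by decide +kernel : ∀ w ∈ r79, w ∈ r79.take 20 ∨ w ∈ (r79.drop 20).take 15 ∨ w ∈ (r79.drop 35).take 15 ∨
    w ∈ (r79.drop 50).take 14 ∨ w ∈ (r79.drop 64).take 14 ∨ w ∈ r79.drop 78) w hw with h | h | h | h | h | h
  exacts [scChk_spec sc1 w h, scChk_spec sc2 w h, scChk_spec sc3 w h, scChk_spec sc4 w h, scChk_spec sc5 w h, scChk_spec sc6 w h]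
theorem sc_rho (j : Nat) (a : ZMod 3) : scActW scRho (j, a) = (fnW t24.Ns scRho j, (if j < 306936 then 1 else 0) + a) := by
  obtain ⟨A, B, s, e⟩ := scRun_spec scRho [] 0 0 _ scS_nil sc7
  rw [and'_eq, Bool.and_eq_true, beq_iff, beq_iff] at e
  have := s j a
  rw [List.nil_append, e.1, e.2, show scRho.length = 2 * 72 by decide +kernel, pow_mul] at this
  rw [this]
  simp [z3v, testBit_ones]
end
end H27
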