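import Cfsg.Agent.H27.SB
import Cfsg.Agent.H28.Sm1
import Cfsg.Agent.H8.Schur3
/-! Covers of `Fi24` given by lifts of the generators; the triple cover. -/
set_option maxRecDepth 100000
namespace H27
open H28 Cfsg
noncomputable section
theorem sc_ker {E : Type} [Group E] (π : E →* F24) {ys : List E} (hl : ys.length = 12) (r : Rels ys r79) (hπ : ys.map π = x24)
    (hn : ∀ y ∈ ys, y * ev ys scRho * y⁻¹ = (ev ys scRho)⁻¹) (h3 : ev ys scRho ^ 3 = 1) :
    Finite (cl ys) ∧ ∀ g ∈ cl ys, π g = 1 → g ∈ Subgroup.zpowers (ev ys scRho) := by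
  have hs := sq_of_rels r (hl ▸ by decide +kernel)
  have pe : ∀ w, π (ev ys w) = ev x24 w := fun w => by rw [← ev_map, hπ]
  have c1 := coe_ev_subL ys scRho
  have p1 : π (ev ys scRho) = 1 := (pe _).trans (f24_rels _ (by decide +kernel))
  generalize hκ : ev ys scRho = κ at *
  have cj : ∀ w, ev ys w * κ * (ev ys w)⁻¹ = κ ∨ ev ys w * κ * (ev ys w)⁻¹ = κ⁻¹ := fun w => by
    induction w with
    | nil => simp [ev_nil]
    | cons a t ih =>
      rw [ev_cons, show ∀ a b : E, a * b * κ * (a * b)⁻¹ = a * (b * κ * b⁻¹) * a⁻¹ from fun _ _ => by group]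
      have : ys.getD a 1 * κ * (ys.getD a 1)⁻¹ = κ ∨ ys.getD a 1 * κ * (ys.getD a 1)⁻¹ = κ⁻¹ := by
        rcases lt_or_ge a ys.length with h | h
        · rw [List.getD_eq_getElem _ _ h]; exact Or.inr (hn _ (List.getElem_mem _))
        · rw [List.getD_eq_default _ _ h]; simp
      rcases ih with e | e <;> rw [e]
      · exact this
      · rw [← conj_inv]; rcases this with e | e <;> rw [e] <;> simp
  generalize hk : ev (subL ys) scRho = k at c1
  have nm : (Subgroup.zpowers k).Normal := ⟨fun n hn g => by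
    obtain ⟨i, rfl⟩ := Subgroup.mem_zpowers_iff.1 hn
    obtain ⟨w, hw⟩ := exists_ev hs g.2
    rw [← conj_zpow]
    refine zpow_mem ?_ i
    rcases cj w with e | e
    · rw [show g * k * g⁻¹ = k from Subtype.ext (by simpa [c1, ← hw] using e)]; exact Subgroup.mem_zpowers k
    · rw [show g * k * g⁻¹ = k⁻¹ from Subtype.ext (by simpa [c1, ← hw] using e)]; exact inv_mem (Subgroup.mem_zpowers k)⟩
  let q := QuotientGroup.mk' (Subgroup.zpowers k)
  have b := f24_pres _ ((subL ys).map q) (by rw [List.length_map, length_subL, hl]) fun w hw => by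
    rw [ev_map]
    rcases (by decide +kernel : ∀ w ∈ f24R, w ∈ r79 ∨ w = scRho) w hw with h | rfl
    · rw [rels_subL r w h, map_one]
    · rw [hk]; exact (QuotientGroup.eq_one_iff k).2 (Subgroup.mem_zpowers k)
  rw [cl_map, cl_subL, Subgroup.map_top_of_surjective _ (QuotientGroup.mk'_surjective _)] at b
  have := b.1
  have fq : Finite (cl ys ⧸ Subgroup.zpowers k) := Finite.of_equiv _ Subgroup.topEquiv.toEquiv
  let φ : cl ys ⧸ Subgroup.zpowers k →* F24 := QuotientGroup.lift _ (π.comp (cl ys).subtype) (by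
    rw [Subgroup.zpowers_le]; change π k.1 = 1; rw [c1, p1])
  have s : Function.Surjective φ := fun x => by
    obtain ⟨w, rfl⟩ := exists_ev x24_sq (f24M.top.ge (Subgroup.mem_top x))
    exact ⟨q ⟨_, ev_mem_cl ys w⟩, pe w⟩
  have bi := (Nat.bijective_iff_surjective_and_card φ).2 ⟨s, le_antisymm
    (by rw [f24_card, ← Subgroup.card_top]; exact b.2) (Nat.card_le_card_of_surjective _ s)⟩
  have : Finite (Subgroup.zpowers k) := finite_zpowers.2 (isOfFinOrder_iff_pow_eq_one.2 ⟨3, by norm_num,
    Subtype.ext (by simpa [c1] using h3)⟩)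
  refine ⟨Finite.of_equiv _ (Subgroup.groupEquivQuotientProdSubgroup (s := Subgroup.zpowers k)).symm, fun g hg e => ?_⟩
  obtain ⟨i, hi⟩ := Subgroup.mem_zpowers_iff.1 ((QuotientGroup.eq_one_iff (N := Subgroup.zpowers k) ⟨g, hg⟩).1
    (bi.1 (e.trans (map_one φ).symm)))
  exact ⟨i, by simpa [c1] using congrArg Subtype.val hi⟩

/-- on the centraliser of the first generator the projection is injective -/
theorem sc_inj {E : Type} [Group E] (π : E →* F24) {ys : List E} (hl : ys.length = 12) (r : Rels ys r79) (hπ : ys.map π = x24)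
    (w : List Nat) (h : ev x24 (expand f24K w) = 1) : ev ys (expand f24K w) = 1 := by
  have rk : Rels (f24K.map (ev ys)) rK := rels_expL.1 (p24_i3 _ _ hl r)
  have := k24_univ.mem (xs := f24K.map (ev ys)) rfl rk (S := []) (w := w) (by rw [k24, ev_expand, h]; exact one_mem _)
  rw [ev_expand] at this
  exact cl_le (H := ⊥) (by simp) this
end
end H27
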