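import Cfsg.Agent.H27.SE
import Mathlib.GroupTheory.RegularWreathProduct
/-! The upper bound for the multiplier of `Fi24'`. -/
set_option maxRecDepth 100000
namespace H27
open H28 Cfsg
open scoped commutatorElement
noncomputable section
/-- an extension of `Fi24` whose kernel is induced from a central kernel -/
structure SCov {E : Type} [Group E] (π : E →* F24) : Prop where
  sur : Function.Surjective π
  cen : ∀ k g, π k = 1 → sgn24 (π g) = 1 → Commute k g
  cj : ∀ x y, π x = π y → sgn24 (π x) = -1 → x * x = 1 → y * y = 1 → ∃ m, π m = 1 ∧ m * x * m⁻¹ = y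
  ex : ∃ x, π x = x24.getD 0 1 ∧ x * x = 1
def scF {E : Type} [Group E] (d : E) : Subgroup E := ⁅Subgroup.centralizer {d}, Subgroup.centralizer {d}⁆
theorem fi23_perf : Group.IsPerfect Spor.Fi23 := by
  have := fi23_simple
  exact (qs_of_simple (G := Spor.Fi23) (by rw [fi23_card]; norm_num)).1.1
theorem fi23_cperf {t : Spor.Fi23} (ht : t ∈ E23) :
    ⁅Subgroup.centralizer {t}, Subgroup.centralizer {t}⁆ = Subgroup.centralizer {t} := by
  obtain ⟨π, s⟩ := lv23.res t ht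
  have := perfect_cn lv23.tg (l := [t]) ⟨by simpa using ht, by simp⟩ (s.gen.trans (cn_one t).symm)
    (fun m hm => m23.gts m (by simp at hm; omega)) m23.rl7 (by decide) (by simp)
  rwa [cn_one] at this
namespace SCov
variable {E : Type} [Group E] {π : E →* F24} (h : SCov π)
omit h in
theorem comm {d x : E} (hx : x ∈ scF d) : Commute d x := H28.mem_cent1.1 (Subgroup.commutator_le_self _ hx)
omit h in
theorem even {d x : E} (hx : x ∈ scF d) : sgn24 (π x) = 1 :=
  Abelianization.commutator_subset_ker (sgn24.comp π) (Subgroup.commutator_mono le_top le_top hx)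
include h
theorem bij {d : E} (hd : π d ∈ E24) (sq : d * d = 1) {ρ : F24 → Spor.Fi23} (r : Res E24 (π d) E23 ρ) :
    (∀ x ∈ scF d, ρ (π x) = 1 → x = 1) ∧ ∀ m, ∃ x ∈ scF d, ρ (π x) = m := by
  have c : ∀ x : Subgroup.centralizer {d}, Commute (π d) (π x) := fun x => (H28.mem_cent1.1 x.2).map π
  let ψ : Subgroup.centralizer {d} →* Spor.Fi23 := MonoidHom.mk' (fun x => ρ (π x)) fun x y => by
    rw [← r.mul _ _ (c x) (c y), ← map_mul]; rfl
  have od := sgn24_eq _ hd
  have s : Function.Surjective ψ := fun m => by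
    obtain ⟨x, a, rfl⟩ := r.sur m
    obtain ⟨x, rfl⟩ := h.sur x
    obtain ⟨k, k1, k2⟩ := h.cj d (x * d * x⁻¹) (by rw [map_mul, map_mul, map_inv, conj_eq_iff_commute.2 a.symm]) od sq
      (by rw [← pow_two, conj_pow, pow_two, sq, mul_one, mul_inv_cancel])
    refine ⟨⟨k⁻¹ * x, H28.mem_cent1.2 (conj_eq_iff_commute.1 ?_).symm⟩, ?_⟩
    · rw [show k⁻¹ * x * d * (k⁻¹ * x)⁻¹ = k⁻¹ * (x * d * x⁻¹) * k by group, ← k2]; group
    · change ρ (π (k⁻¹ * x)) = _
      rw [map_mul, map_inv, k1, inv_one, one_mul]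
  have z0 : ∀ x g : E, Commute d x → Commute d g → π x = 1 → Commute x g := fun x g a b e => by
    rcases Int.units_eq_one_or (sgn24 (π g)) with k | k
    · exact h.cen x g e k
    · have := (h.cen x (g * d) e (by rw [map_mul, map_mul, k, od]; simp)).mul_right a.symm
      rwa [mul_assoc, sq, mul_one] at this
  have z : ψ.ker ≤ Subgroup.center _ := fun x hx => Subgroup.mem_center_iff.2 fun g => Subtype.ext (by
    have a := H28.mem_cent1.1 x.2
    have b := H28.mem_cent1.1 g.2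
    rcases (r.ker _ (c x)).1 hx with e | e
    · exact (z0 _ _ a b e).symm.eq
    · have := (z0 (x * d) g (a.mul_right (Commute.refl d)) b (by rw [map_mul, e, ← map_mul, sq, map_one])).mul_left b
      rw [mul_assoc, sq, mul_one] at this
      exact this.symm.eq)
  have s' := H8.commutator_surj_of_perfect fi23_perf s
  have p := H8.perfect_commutator_of_central fi23_perf s z
  have k := schur23 (σ := ψ.comp (commutator _).subtype) ⟨s', fun x hx => Subgroup.mem_center_iff.2 fun g =>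
    Subtype.ext (Subgroup.mem_center_iff.1 (z hx) g.1), fun _ _ => Group.IsPerfect.mem_commutator⟩
  rw [scF, ← Subgroup.map_subtype_commutator]
  refine ⟨?_, fun m => ?_⟩
  · rintro _ ⟨x, hx, rfl⟩ e
    exact congrArg (fun y => y.1.1) (Subgroup.mem_bot.1 (k.le (show (⟨x, hx⟩ : commutator _) ∈ _ from e)))
  · obtain ⟨x, hx⟩ := s' m
    exact ⟨_, ⟨x.1, x.2, rfl⟩, hx⟩
theorem one {d x : E} (hd : π d ∈ E24) (sq : d * d = 1) (hx : x ∈ scF d) (e : π x = 1) : x = 1 :=
  let ⟨_, r⟩ := lv24.res _ hd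
  (h.bij hd sq r).1 x hx (e ▸ r.one)
theorem lift {d : E} (hd : π d ∈ E24) (sq : d * d = 1) {y : F24} (hy : y ∈ E24) (c : Commute (π d) y) :
    ∃ x, π x = y ∧ x * x = 1 ∧ d * x ∈ scF d := by
  obtain ⟨ρ, r⟩ := lv24.res _ hd
  obtain ⟨x, a, b⟩ := (h.bij hd sq r).2 (ρ y)
  have dd : π d * π d = 1 := by rw [← map_mul, sq, map_one]
  have e : π (d * x) = y := by
    rcases r.eq ((comm a).map π) c b with e | e
    · have := even (π := π) a
      rw [← e, sgn24_eq _ hy] at this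
      exact absurd this (by decide)
    · rw [map_mul, e]
  refine ⟨d * x, e, ?_, by rwa [← mul_assoc, sq, one_mul]⟩
  have : d * x * (d * x) = x * x := by rw [(comm a).symm.mul_mul_mul_comm, sq, one_mul]
  refine this.trans (h.one hd sq (mul_mem a a) ?_)
  rw [← this, map_mul, e, tt_sq t24M.tt hy]
theorem swap {u v y : E} (hu : π u ∈ E24) (su : u * u = 1) (hv : π v ∈ E24) (sv : v * v = 1) (n : π v ≠ π u)
    (a : u * v ∈ scF u) (b : u * y ∈ scF u) (c : Commute (π y) (π v)) : v * y ∈ scF v := by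
  obtain ⟨ρ, r⟩ := lv24.res _ hu
  obtain ⟨i, s⟩ := h.bij hu su r
  have uv : Commute u v := by
    have := (Commute.refl u).mul_right (comm a)
    rwa [← mul_assoc, su, one_mul] at this
  have cm : ∀ {x}, x ∈ scF u → Commute (π u) (π x) := fun hx => (comm hx).map π
  have nb : π v ∈ Nb E24 [π u] := mem_nb1.2 ⟨hv, n, uv.map π⟩
  have t : ρ (π (u * v)) = ρ (π v) := by rw [map_mul, r.mul _ _ (Commute.refl _) (uv.map π), r.self, one_mul]
  have inj : ∀ x ∈ scF u, ∀ z ∈ scF u, ρ (π x) = ρ (π z) → x = z := fun x hx z hz e =>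
    mul_inv_eq_one.1 (i _ (mul_mem hx (inv_mem hz)) (by
      rw [map_mul, map_inv, r.mul _ _ (cm hx) (cm hz).inv_right, r.inv (cm hz), e, mul_inv_cancel]))
  have cv : ∀ x ∈ scF u, Commute (ρ (π v)) (ρ (π x)) → Commute v x := fun x hx e => by
    have : Commute (u * v) x := inj _ (mul_mem a hx) _ (mul_mem hx a) (by
      rw [map_mul π _ x, map_mul π x, r.mul _ _ (cm a) (cm hx), r.mul _ _ (cm hx) (cm a), t, e.eq])
    have := (comm hx).mul_left this
    rwa [← mul_assoc, su, one_mul] at this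
  let ψ : scF u →* Spor.Fi23 := MonoidHom.mk' (fun x => ρ (π x)) fun x y => by
    rw [← r.mul _ _ (cm x.2) (cm y.2), ← map_mul]; rfl
  have key : ∀ x ∈ scF u, Commute (π x) (π v) → x ∈ scF v := fun x hx e => by
    have m : ρ (π x) ∈ ((scF v).comap (scF u).subtype).map ψ := by
      refine (Subgroup.commutator_le.2 fun p hp q hq => ?_) ((fi23_cperf (r.fi.mem nb)).ge (H28.mem_cent1.2
        ((r.comm t24M.cj (cm hx) nb).2 e).symm))
      obtain ⟨p, p1, rfl⟩ := s p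
      obtain ⟨q, q1, rfl⟩ := s q
      exact ⟨⁅(⟨p, p1⟩ : scF u), ⟨q, q1⟩⁆, Subgroup.commutator_mem_commutator (H28.mem_cent1.2 (cv p p1 (H28.mem_cent1.1 hp)))
        (H28.mem_cent1.2 (cv q q1 (H28.mem_cent1.1 hq))), map_commutatorElement ψ _ _⟩
    obtain ⟨z, z1, z2⟩ := m
    exact inj _ z.2 _ hx z2 ▸ z1
  have k := mul_mem (inv_mem (key _ a (by rw [map_mul]; exact (uv.map π).mul_left (Commute.refl _))))
    (key _ b (by rw [map_mul]; exact (uv.map π).mul_left c))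
  rwa [mul_inv_rev, mul_assoc, inv_mul_cancel_left, inv_eq_of_mul_eq_one_right sv] at k
theorem rel {d : E} (hd : π d ∈ E24) (sq : d * d = 1) {ys : List E} {w : List Nat}
    (a : ∀ i ∈ w, d * ys.getD i 1 ∈ scF d ∧ ys.getD i 1 * ys.getD i 1 = 1) (e : π (ev ys w) = 1) : ev ys w = 1 := by
  rcases sc_coset _ d ys w a with k | k
  · exact h.one hd sq k e
  · have := even (π := π) k
    rw [map_mul, e, mul_one, sgn24_eq _ hd] at this
    exact absurd this (by decide)
theorem main : ∃ (ys : List E) (κ : E), ys.map π = x24 ∧ κ ∈ cl ys ∧ π κ = 1 ∧ κ ^ 3 = 1 ∧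
    ∀ g ∈ cl ys, π g = 1 → g ∈ Subgroup.zpowers κ := by
  obtain ⟨l, l1, l2⟩ := h.ex
  have cm : ∀ {i j}, cmR f24R i j → Commute (x24.getD i 1) (x24.getD j 1) := fun c => f24_rels.cmR x24_sq c
  have ne : ∀ i < 12, ∀ j < 12, nth 0 t24.I i ≠ nth 0 t24.I j → x24.getD i 1 ≠ x24.getD j 1 := fun i hi j hj n e =>
    n (t24M.bij.injOn (t24M.idx i hi).1 (t24M.idx j hj).1 (by rw [(t24M.idx i hi).2, (t24M.idx j hj).2, e]))
  have hl : π l ∈ E24 := l1 ▸ sc_mem (by decide)
  have : ∀ i, i < 12 ∧ i ≠ 1 → ∃ x, π x = x24.getD i 1 ∧ x * x = 1 ∧ l * x ∈ scF l := fun i hi =>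
    h.lift hl l2 (sc_mem hi.1) (l1 ▸ cm ((by decide +kernel : ∀ i < 12, i ≠ 1 → cmR f24R 0 i) i hi.1 hi.2))
  choose! f hf using this
  have f9 := hf 9 (by decide)
  have f11 := hf 11 (by decide)
  have h9 : π (f 9) ∈ E24 := f9.1 ▸ sc_mem (by decide)
  have h11 : π (f 11) ∈ E24 := f11.1 ▸ sc_mem (by decide)
  obtain ⟨k, k1, k2, k3⟩ := h.lift h9 f9.2.1 (sc_mem (i := 1) (by decide)) (f9.1 ▸ cm (by decide +kernel))
  obtain ⟨ys, len, y1, y2⟩ : ∃ ys : List E, ys.length = 12 ∧ ys.getD 1 1 = k ∧ ∀ i < 12, i ≠ 1 → ys.getD i 1 = f i :=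
    ⟨[f 0, k, f 2, f 3, f 4, f 5, f 6, f 7, f 8, f 9, f 10, f 11], rfl, rfl, fun i hi n => by
      interval_cases i <;> first | rfl | exact absurd rfl n⟩
  have b : ∀ i < 12, π (ys.getD i 1) = x24.getD i 1 ∧ ys.getD i 1 * ys.getD i 1 = 1 := fun i hi => by
    rcases eq_or_ne i 1 with rfl | n
    · rw [y1]; exact ⟨k1, k2⟩
    · rw [y2 i hi n]; exact ⟨(hf i ⟨hi, n⟩).1, (hf i ⟨hi, n⟩).2.1⟩
  have hπ : ys.map π = x24 := List.ext_getElem (by rw [List.length_map, len]; rfl) fun i h1 h2 => by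
    rw [List.getElem_map, ← List.getD_eq_getElem _ 1, ← List.getD_eq_getElem _ 1 h2]
    exact (b i (by simpa [len] using h1)).1
  have pe : ∀ w, π (ev ys w) = ev x24 w := fun w => by rw [← ev_map, hπ]
  have a0 : ∀ i < 12, i ≠ 1 → l * ys.getD i 1 ∈ scF l := fun i hi n => y2 i hi n ▸ (hf i ⟨hi, n⟩).2.2
  have a9 : ∀ i < 12, i ≠ 8 → f 9 * ys.getD i 1 ∈ scF (f 9) := fun i hi n => by
    rcases eq_or_ne i 1 with rfl | n'
    · rw [y1]; exact k3
    · exact h.swap hl l2 h9 f9.2.1 (by rw [f9.1, l1]; exact ne 9 (by decide) 0 (by decide) (by decide +kernel)) f9.2.2 (a0 i hi n')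
        (by rw [(b i hi).1, f9.1]; exact cm ((by decide +kernel : ∀ i < 12, i ≠ 8 → cmR f24R i 9) i hi n))
  have a11 : ∀ i, i = 1 ∨ i = 8 → f 11 * ys.getD i 1 ∈ scF (f 11) := by
    rintro _ (rfl | rfl)
    · exact h.swap h9 f9.2.1 h11 f11.2.1 (by rw [f9.1, f11.1]; exact ne 11 (by decide) 9 (by decide) (by decide +kernel))
        (y2 11 (by decide) (by decide) ▸ a9 11 (by decide) (by decide)) (a9 1 (by decide) (by decide))
        (by rw [(b 1 (by decide)).1, f11.1]; exact cm (by decide +kernel))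
    · exact h.swap hl l2 h11 f11.2.1 (by rw [f11.1, l1]; exact ne 11 (by decide) 0 (by decide) (by decide +kernel)) f11.2.2
        (a0 8 (by decide) (by decide)) (by rw [(b 8 (by decide)).1, f11.1]; exact cm (by decide +kernel))
  have r0 : ∀ w : List Nat, (∀ i ∈ w, i < 12 ∧ i ≠ 1) → ev x24 w = 1 → ev ys w = 1 := fun w hw e =>
    h.rel hl l2 (fun i hi => ⟨a0 i (hw i hi).1 (hw i hi).2, (b i (hw i hi).1).2⟩) ((pe w).trans e)
  have r : Rels ys r79 := fun w hw => by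
    have e := f24_rels w (List.mem_of_mem_take hw)
    rcases (by decide +kernel : ∀ w ∈ r79, (∀ i ∈ w, i < 12 ∧ i ≠ 1) ∨ (∀ i ∈ w, i < 12 ∧ i ≠ 8) ∨ ∀ i ∈ w, i = 1 ∨ i = 8) w hw
      with c | c | c
    · exact r0 w c e
    · exact h.rel h9 f9.2.1 (fun i hi => ⟨a9 i (c i hi).1 (c i hi).2, (b i (c i hi).1).2⟩) ((pe w).trans e)
    · exact h.rel h11 f11.2.1 (fun i hi => ⟨a11 i (c i hi), (b i (by rcases c i hi with rfl | rfl <;> decide)).2⟩) ((pe w).trans e)
  have hs := sq_of_rels r (len ▸ by decide +kernel)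
  have p1 : π (ev ys scRho) = 1 := (pe _).trans (f24_rels _ (by decide +kernel))
  have c3 := r0 (pwW 3 (3 :: H28.cjW f24v 2)) (by decide +kernel) (fm24.one _ (by decide +kernel))
  have ck := r.cmR hs (by decide +kernel : cmR r79 3 1)
  have eκ : ev ys scRho = (ev ys (H28.cjW f24v 2) * ys.getD 1 1) ^ 2 := by rw [scRho, ev_pwW, cat_eq, ev_append, ev_single]
  have su : ev ys (H28.cjW f24v 2) * ev ys (H28.cjW f24v 2) = 1 := by
    rw [ev_cjW hs, ← pow_two, conj_pow, pow_two, sq_getD hs, mul_one, mul_inv_cancel]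
  have ou : sgn24 (π (ev ys (H28.cjW f24v 2))) = -1 := by
    rw [pe]; exact sgn24_eq _ (t24M.pv_mem (p := (2, f24v)) (by decide))
  have sk := sq_getD hs 1
  rw [ev_pwW, ev_cons] at c3
  generalize ev ys (H28.cjW f24v 2) = u at *
  have uk : u * ys.getD 1 1 * u⁻¹ = ev ys scRho * ys.getD 1 1 := by
    rw [eκ, pow_two, mul_assoc _ _ (ys.getD 1 1), mul_assoc u _ (ys.getD 1 1), sk, mul_one, inv_eq_of_mul_eq_one_right su]
  have u1 : u * ev ys scRho * u⁻¹ = (ev ys scRho)⁻¹ := by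
    rw [eκ, pow_two, mul_inv_rev, mul_inv_rev, inv_eq_of_mul_eq_one_right su, inv_eq_of_mul_eq_one_right sk, ← mul_assoc, ← mul_assoc,
      ← mul_assoc, su, one_mul, ← mul_assoc]
  have hn : ∀ y, sgn24 (π y) = -1 → y * ev ys scRho * y⁻¹ = (ev ys scRho)⁻¹ := fun y hy => by
    rw [show y * ev ys scRho * y⁻¹ = y * u⁻¹ * (u * ev ys scRho * u⁻¹) * (y * u⁻¹)⁻¹ by group, u1]
    exact conj_eq_iff_commute.2 (h.cen _ _ p1 (by rw [map_mul, map_inv, map_mul, map_inv, hy, ou]; simp)).symm.inv_right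
  have h3 : ev ys scRho ^ 3 = 1 := by
    have e1 := hn (ys.getD 3 1) (by rw [(b 3 (by decide)).1, sgn24_eq _ (sc_mem (by decide))])
    generalize ev ys scRho = κ at *
    generalize ys.getD 3 1 = a at *
    generalize ys.getD 1 1 = k at *
    have g1 : a * u * κ * (a * u)⁻¹ = κ := by
      rw [show a * u * κ * (a * u)⁻¹ = a * (u * κ * u⁻¹) * a⁻¹ by group, u1, ← conj_inv, e1, inv_inv]
    have g2 : a * u * k * (a * u)⁻¹ = κ⁻¹ * k := by
      rw [show a * u * k * (a * u)⁻¹ = a * (u * k * u⁻¹) * a⁻¹ by group, uk, ← conj_mul, e1, conj_eq_iff_commute.2 ck]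
    generalize a * u = g at *
    have g3 : ∀ n : ℕ, g ^ n * k * (g ^ n)⁻¹ = κ⁻¹ ^ n * k := fun n => by
      induction n with
      | zero => simp
      | succ n ih =>
        rw [pow_succ', show g * g ^ n * k * (g * g ^ n)⁻¹ = g * (g ^ n * k * (g ^ n)⁻¹) * g⁻¹ by group, ih, ← conj_mul, g2,
          ← conj_pow, ← conj_inv, g1, pow_succ, mul_assoc]
    have := g3 3
    rw [c3, one_mul, inv_one, mul_one, eq_comm, mul_eq_right, inv_pow, inv_eq_one] at this
    exact this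
  exact ⟨ys, _, hπ, ev_mem_cl _ _, p1, h3, (sc_ker π len r hπ (fun y hy => hn y
    (sgn24_eq _ (x24_mem _ (hπ ▸ List.mem_map_of_mem hy)))) h3).2⟩
end SCov

def scT (x : ℤˣ) : F24 := if x = 1 then 1 else x24.getD 0 1
theorem scT_sgn (x : ℤˣ) : sgn24 (scT x) = x := by
  rcases Int.units_eq_one_or x with rfl | rfl
  · simp [scT]
  · rw [scT, if_neg (by decide), sgn24_eq _ (sc_mem (by decide))]
def scE {Γ : Type} [Group Γ] (σ : Γ →* sgn24.ker) : Subgroup (F24 × (Γ ≀ᵣ ℤˣ)) where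
  carrier := {p | p.2.right = sgn24 p.1 ∧ ∀ x, (σ (p.2.left x) : F24) = scT x * p.1 * (scT (p.2.right⁻¹ * x))⁻¹}
  one_mem' := ⟨by simp, fun x => by simp⟩
  mul_mem' := fun {a b} ha hb => ⟨by simp [ha.1, hb.1], fun x => by
    simp only [Prod.snd_mul, RegularWreathProduct.mul_left, Pi.mul_apply, map_mul, Subgroup.coe_mul, ha.2, hb.2, Prod.fst_mul,
      RegularWreathProduct.mul_right, mul_inv_rev, mul_assoc, inv_mul_cancel_left]⟩
  inv_mem' := fun {a} ha => ⟨by simp [ha.1], fun x => by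
    simp only [Prod.snd_inv, RegularWreathProduct.inv_left, Pi.inv_apply, map_inv, Subgroup.coe_inv, ha.2, Prod.fst_inv,
      RegularWreathProduct.inv_right, mul_inv_rev, mul_assoc, inv_mul_cancel_left, inv_inv]⟩
theorem sc_cov {Γ : Type} [Group Γ] {σ : Γ →* sgn24.ker} (h : IsStemExtension σ) :
    SCov ((MonoidHom.fst _ _).comp (scE σ).subtype) := by
  refine ⟨fun g => ?_, fun k g hk hg => ?_, fun x y e o a b => ?_, ⟨⟨(x24.getD 0 1, ⟨1, -1⟩), (sgn24_eq _ (sc_mem (i := 0) (by decide))).symm,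
    fun x => ?_⟩, rfl, Subtype.ext (Prod.ext (sq_getD x24_sq 0) (by ext <;> simp))⟩⟩
  · have : ∀ x : ℤˣ, ∃ c, (σ c : F24) = scT x * g * (scT ((sgn24 g)⁻¹ * x))⁻¹ := fun x => by
      obtain ⟨c, hc⟩ := h.1 ⟨scT x * g * (scT ((sgn24 g)⁻¹ * x))⁻¹, by
        rw [MonoidHom.mem_ker, map_mul, map_mul, map_inv, scT_sgn, scT_sgn]
        rcases Int.units_eq_one_or x with rfl | rfl <;> rcases Int.units_eq_one_or (sgn24 g) with e | e <;> rw [e] <;> decide⟩
      exact ⟨c, congrArg Subtype.val hc⟩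
    choose c hc using this
    exact ⟨⟨(g, ⟨c, sgn24 g⟩), rfl, hc⟩, rfl⟩
  · obtain ⟨⟨k, k2⟩, k3, k4⟩ := k
    obtain ⟨⟨g, g2⟩, g3, g4⟩ := g
    change k = 1 at hk
    change sgn24 g = 1 at hg
    subst hk
    simp only [map_one] at k3
    simp only [hg] at g3
    refine Subtype.ext (Prod.ext (by simp) (RegularWreathProduct.ext (funext fun x => ?_) (mul_comm _ _)))
    have : k2.left x ∈ Subgroup.center Γ := h.2.1 (Subtype.ext (by simpa [k3] using k4 x))
    simpa [k3, g3] using (Subgroup.mem_center_iff.1 this _).symm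
  · obtain ⟨⟨x, x2⟩, x3, x4⟩ := x
    obtain ⟨⟨y, y2⟩, y3, y4⟩ := y
    change x = y at e
    change sgn24 x = -1 at o
    subst e
    simp only [o] at x3 y3
    have a1 := congrFun (congrArg (fun p => p.1.2.left) a) (-1)
    have b1 := congrFun (congrArg (fun p => p.1.2.left) b) (-1)
    simp [x3] at a1
    simp [y3] at b1
    refine ⟨⟨(1, ⟨fun s => if s = 1 then y2.left 1 * (x2.left 1)⁻¹ else 1, 1⟩), by simp, fun s => ?_⟩, rfl,
      Subtype.ext (Prod.ext (by simp) (RegularWreathProduct.ext (funext fun s => ?_) (by simp [x3, y3])))⟩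
    · have c1 := x4 1
      have c2 := y4 1
      simp only [x3, y3] at c1 c2
      rcases Int.units_eq_one_or s with rfl | rfl <;> simp [c1, c2]
    · rcases Int.units_eq_one_or s with rfl | rfl
      · simp [x3]
      · simp [x3, ← mul_assoc, a1, eq_inv_of_mul_eq_one_left b1]
  · have := sq_getD x24_sq 0
    rcases Int.units_eq_one_or x with rfl | rfl <;> simp_all [scT]
theorem sc_upper {Γ : Type} [Group Γ] {σ : Γ →* sgn24.ker} (h : IsStemExtension σ) :
    ∃ π : Multiplicative (ZMod 3) →* σ.ker, Function.Surjective π := by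
  obtain ⟨ys, κ, hπ, m, p1, h3, ker⟩ := (sc_cov h).main
  generalize hp : (MonoidHom.fst _ _).comp (scE σ).subtype = π at *
  have pp : ∀ g : scE σ, π g = g.1.1 := fun g => hp ▸ rfl
  let H : Subgroup (scE σ) := cl ys ⊓ (sgn24.comp π).ker
  have r1 : ∀ g : H, g.1.1.2.right = 1 := fun g => g.1.2.1.trans (pp g.1 ▸ g.2.2)
  let ψ : H →* Γ := MonoidHom.mk' (fun g => g.1.1.2.left 1) fun a b => by simp [r1 a]
  have e : ∀ g : H, (σ (ψ g) : F24) = π g.1 := fun g => by
    change (σ (g.1.1.2.left 1) : F24) = _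
    simpa [r1 g, scT, pp] using g.1.2.2 1
  have s : Function.Surjective (σ.comp ψ) := fun x => by
    obtain ⟨g, hg, e'⟩ : x.1 ∈ (cl ys).map π := by rw [← cl_map, hπ, f24M.top]; trivial
    exact ⟨⟨g, hg, by change sgn24 (π g) = 1; rw [e']; exact x.2⟩, Subtype.ext ((e _).trans e')⟩
  have c := H8.map_commutator_of_over s h.2.1 (ψ := ψ) rfl
  have kH : κ ∈ H := ⟨m, by change sgn24 (π κ) = 1; rw [p1, map_one]⟩
  let z : σ.ker := ⟨ψ ⟨κ, kH⟩, Subtype.ext ((e _).trans p1)⟩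
  have z3 : z ^ 3 = 1 := Subtype.ext (by
    change ψ ⟨κ, kH⟩ ^ 3 = 1
    rw [← map_pow, show (⟨κ, kH⟩ : H) ^ 3 = 1 from Subtype.ext h3, map_one])
  have gz : ∀ x : σ.ker, x ∈ Subgroup.zpowers z := fun x => by
    obtain ⟨g, -, hg⟩ := c.ge (h.2.2 x.2)
    obtain ⟨i, hi⟩ := Subgroup.mem_zpowers_iff.1 (ker g g.2.1 (by rw [← e, hg, show σ x = 1 from x.2]; rfl))
    refine ⟨i, Subtype.ext ?_⟩
    change ψ ⟨κ, kH⟩ ^ i = _
    rw [← map_zpow, ← hg]
    exact congrArg ψ (Subtype.ext hi)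
  by_cases z1 : z = 1
  · exact ⟨1, fun x => ⟨1, by simpa [z1, eq_comm] using gz x⟩⟩
  · have : Fact (Nat.Prime 3) := ⟨by norm_num⟩
    exact ⟨(zmodMulEquivOfGenerator gz (by
      rw [← orderOf_eq_card_of_forall_mem_zpowers gz, orderOf_eq_prime z3 z1])).toMonoidHom, MulEquiv.surjective _⟩
theorem sc_equiv : Nonempty (Spor.Fi24' ≃* sgn24.ker) := by
  obtain ⟨e, -⟩ := fi24_equiv
  refine ⟨(e.subgroupMap _).trans (MulEquiv.subgroupCongr ?_)⟩
  rw [← f24_commutator, commutator_def, commutator_def, Subgroup.map_commutator, Subgroup.map_top_of_surjective _ e.surjective]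
theorem fi24_schur : HasCyclicSchurMultiplier Spor.Fi24' 3 := by
  obtain ⟨e⟩ := sc_equiv
  refine ⟨?_, fun Γ _ _ σ h => ?_⟩
  · obtain ⟨Γ, a, b, σ, h, k⟩ := sc_exists
    obtain ⟨h1, h2⟩ := H8.stem_equiv_comp h e.symm
    exact ⟨Γ, a, b, _, h1, h2 ▸ k⟩
  · obtain ⟨h1, h2⟩ := H8.stem_equiv_comp h e
    exact h2 ▸ sc_upper h1
end
end H27
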