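import Cfsg.Agent.H27.SC
/-! The triple cover of `Fi24'`. -/
set_option maxRecDepth 100000
namespace H27
open H28 Cfsg
open scoped commutatorElement
noncomputable section
theorem sc_mem {i : Nat} (hi : i < 12) : x24.getD i 1 ∈ E24 := (t24M.idx i hi).2 ▸ t24M.bij.mapsTo (t24M.idx i hi).1
theorem sc_coset {E : Type*} [Group E] (N : Subgroup E) (d : E) (ys : List E) (w : List Nat)
    (h : ∀ i ∈ w, d * ys.getD i 1 ∈ N ∧ ys.getD i 1 * ys.getD i 1 = 1) : ev ys w ∈ N ∨ d * ev ys w ∈ N := by
  induction w with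
  | nil => exact Or.inl (one_mem _)
  | cons a t ih =>
    rw [List.forall_mem_cons] at h
    rw [ev_cons]
    rcases ih h.2 with e | e
    · exact Or.inr (by rw [← mul_assoc]; exact mul_mem h.1.1 e)
    · refine Or.inl ?_
      have := mul_mem (inv_mem h.1.1) e
      rwa [mul_inv_rev, mul_assoc, inv_mul_cancel_left, inv_eq_of_mul_eq_one_right h.1.2] at this
theorem sc_getD {E : Type*} [Group E] {π : E →* F24} {ys : List E} (hπ : ys.map π = x24) (i : Nat) :
    π (ys.getD i 1) = x24.getD i 1 := by rw [← ev_single, ← ev_map, hπ, ev_single]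
theorem sc_stem {E : Type} [Group E] (π : E →* F24) {ys : List E} (hl : ys.length = 12) (r : Rels ys r79) (hπ : ys.map π = x24)
    (hn : ∀ y ∈ ys, y * ev ys scRho * y⁻¹ = (ev ys scRho)⁻¹) (h3 : ev ys scRho ^ 3 = 1) (h1 : ev ys scRho ≠ 1) :
    ∃ (Γ : Type) (_ : Group Γ) (_ : Finite Γ) (σ : Γ →* sgn24.ker), IsStemExtension σ ∧
      Nonempty (σ.ker ≃* Multiplicative (ZMod 3)) := by
  obtain ⟨fin, ker⟩ := sc_ker π hl r hπ hn h3
  have hs := sq_of_rels r (hl ▸ by decide +kernel)
  have pe : ∀ w, π (ev ys w) = ev x24 w := fun w => by rw [← ev_map, hπ]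
  have p1 : π (ev ys scRho) = 1 := (pe _).trans (f24_rels _ (by decide +kernel))
  have sg : ∀ i < 12, sgn24 (π (ys.getD i 1)) = -1 := fun i hi => by rw [sc_getD hπ, sgn24_eq _ (sc_mem hi)]
  have mem : ∀ i, ys.getD i 1 ∈ cl ys := fun i => ev_single ys i ▸ ev_mem_cl ys [i]
  let H : Subgroup E := cl ys ⊓ (sgn24.comp π).ker
  have ev2 : ∀ i < 12, ∀ j < 12, ys.getD i 1 * ys.getD j 1 ∈ H := fun i hi j hj => ⟨mul_mem (mem i) (mem j), by
    change sgn24 (π _) = 1
    rw [map_mul, map_mul, sg i hi, sg j hj]; simp⟩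
  have edge : ∀ a < 12, ∀ b < 12, ∀ d < 12, cmR r79 d a → cmR r79 d b → pwW 3 [a, b] ∈ r79 →
      ys.getD 0 1 * ys.getD a 1 ∈ ⁅H, H⁆ → ys.getD 0 1 * ys.getD b 1 ∈ ⁅H, H⁆ := fun a ha b hb d hd c1 c2 c3 m => by
    have k1 := r.cmR hs c1
    have k2 := r.cmR hs c2
    have k3 := r _ c3
    have k4 := Subgroup.commutator_mem_commutator (ev2 b hb d hd) (ev2 a ha d hd)
    rw [ev_pwW, ev_cons, ev_single] at k3
    have sa := sq_getD hs a
    have sb := sq_getD hs b
    have sd := sq_getD hs d
    generalize ys.getD a 1 = x at *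
    generalize ys.getD b 1 = y at *
    generalize ys.getD d 1 = z at *
    have : ⁅y * z, x * z⁆ = x * y := by
      rw [commutatorElement_def, show y * z * (x * z) * (y * z)⁻¹ * (x * z)⁻¹ = y * (z * x * z⁻¹) * (z * y⁻¹ * z⁻¹) * x⁻¹ by
        group, conj_eq_iff_commute.2 k1, conj_eq_iff_commute.2 k2.inv_right,
        eq_inv_of_mul_eq_one_right (show x * y * (x * y) * (x * y) = 1 by rw [← k3, pow_succ, pow_two])]
      simp only [mul_inv_rev, inv_eq_of_mul_eq_one_right sa, inv_eq_of_mul_eq_one_right sb, mul_assoc]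
    have k5 := mul_mem m (this ▸ k4)
    rwa [mul_assoc, ← mul_assoc x, sa, one_mul] at k5
  have e0 : ys.getD 0 1 * ys.getD 0 1 ∈ ⁅H, H⁆ := by rw [sq_getD hs 0]; exact one_mem _
  have e1 := edge 0 (by decide) 1 (by decide) 9 (by decide) (by decide +kernel) (by decide +kernel) (by decide +kernel) e0
  have e2 := edge 1 (by decide) 2 (by decide) 9 (by decide) (by decide +kernel) (by decide +kernel) (by decide +kernel) e1
  have e3 := edge 2 (by decide) 3 (by decide) 9 (by decide) (by decide +kernel) (by decide +kernel) (by decide +kernel) e2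
  have e4 := edge 3 (by decide) 4 (by decide) 9 (by decide) (by decide +kernel) (by decide +kernel) (by decide +kernel) e3
  have e5 := edge 4 (by decide) 5 (by decide) 9 (by decide) (by decide +kernel) (by decide +kernel) (by decide +kernel) e4
  have e6 := edge 5 (by decide) 6 (by decide) 9 (by decide) (by decide +kernel) (by decide +kernel) (by decide +kernel) e5
  have e7 := edge 6 (by decide) 7 (by decide) 9 (by decide) (by decide +kernel) (by decide +kernel) (by decide +kernel) e6
  have e8 := edge 7 (by decide) 8 (by decide) 0 (by decide) (by decide +kernel) (by decide +kernel) (by decide +kernel) e7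
  have e9 := edge 8 (by decide) 9 (by decide) 0 (by decide) (by decide +kernel) (by decide +kernel) (by decide +kernel) e8
  have e10 := edge 5 (by decide) 10 (by decide) 0 (by decide) (by decide +kernel) (by decide +kernel) (by decide +kernel) e5
  have e11 := edge 10 (by decide) 11 (by decide) 0 (by decide) (by decide +kernel) (by decide +kernel) (by decide +kernel) e10
  have ea : ∀ i < 12, ys.getD 0 1 * ys.getD i 1 ∈ ⁅H, H⁆ := fun i hi => by interval_cases i <;> assumption
  have kc : ev ys scRho ∈ ⁅H, H⁆ := (sc_coset _ (ys.getD 0 1) ys scRho fun i hi =>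
    ⟨ea i ((by decide +kernel : ∀ i ∈ scRho, i < 12) i hi), sq_getD hs i⟩).resolve_right fun h => by
      have : sgn24 (π _) = 1 := (Subgroup.commutator_le_self H h).2
      rw [map_mul, map_mul, sg 0 (by decide), p1, map_one] at this
      exact absurd this (by decide)
  have kH : ev ys scRho ∈ H := Subgroup.commutator_le_self H kc
  generalize ev ys scRho = κ at *
  have cj : ∀ w, ev ys w * κ * (ev ys w)⁻¹ = κ ^ (sgn24 (π (ev ys w)) : ℤ) := fun w => by
    induction w with
    | nil => simp [ev_nil]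
    | cons a t ih =>
      rw [ev_cons, show ∀ a b : E, a * b * κ * (a * b)⁻¹ = a * (b * κ * b⁻¹) * a⁻¹ from fun _ _ => by group, ih, ← conj_zpow,
        map_mul, map_mul]
      rcases lt_or_ge a ys.length with h | h
      · rw [sg a (hl ▸ h), List.getD_eq_getElem _ _ h, hn _ (List.getElem_mem _)]; simp
      · rw [List.getD_eq_default _ _ h]; simp
  let σ : H →* sgn24.ker := (π.comp H.subtype).codRestrict _ fun x => x.2.2
  have hk : σ.ker = Subgroup.zpowers ⟨κ, kH⟩ := le_antisymm (fun g hg => by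
    obtain ⟨i, hi⟩ := Subgroup.mem_zpowers_iff.1 (ker g g.2.1 (congrArg Subtype.val hg))
    exact ⟨i, Subtype.ext (by simpa using hi)⟩) (Subgroup.zpowers_le.2 (Subtype.ext p1))
  have : Finite H := finite_of_le inf_le_left
  have : Fact (Nat.Prime 3) := ⟨by norm_num⟩
  refine ⟨H, inferInstance, inferInstance, σ, ⟨fun x => ?_, ?_, ?_⟩, ⟨mulEquivOfPrimeCardEq (p := 3) ?_ (by simp)⟩⟩
  · obtain ⟨w, hw⟩ := exists_ev x24_sq (f24M.top.ge (Subgroup.mem_top x.1))
    exact ⟨⟨ev ys w, ev_mem_cl _ _, by change sgn24 (π _) = 1; rw [pe, hw]; exact x.2⟩, Subtype.ext ((pe w).trans hw)⟩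
  · rw [hk, Subgroup.zpowers_le, Subgroup.mem_center_iff]
    intro g
    obtain ⟨w, hw⟩ := exists_ev hs g.2.1
    have := cj w
    rw [hw, show sgn24 (π g.1) = 1 from g.2.2] at this
    exact Subtype.ext (conj_eq_iff_commute.1 (by simpa using this)).eq
  · rw [hk, Subgroup.zpowers_le]
    rw [← Subgroup.map_subtype_commutator] at kc
    obtain ⟨x, hx, e⟩ := kc
    exact (show x = ⟨κ, kH⟩ from Subtype.ext e) ▸ hx
  · rw [hk, Nat.card_zpowers]
    exact orderOf_eq_prime (Subtype.ext (by simpa using h3)) fun e => h1 (congrArg Subtype.val e)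

open Classical in
def scP (g : Nat) : Equiv.Perm (Nat × ZMod 3) := if h : Function.Involutive (scAct g) then h.toPerm _ else 1
theorem sc_fix {w : List Nat} (h : ev x24 w = 1) (j : Nat) : fnW t24.Ns w j = j := by
  rcases lt_or_ge j t24.n with hj | hj
  · exact (t24M.fn_eq w hj).2 (h ▸ Commute.one_left _)
  · exact fnW_ge t24M.ok w hj
theorem sc_rel {w : List Nat} (hw : w ∈ r79) (x : Nat × ZMod 3) : scActW w x = x := by
  rw [sc_r79 w hw x.1 x.2, sc_fix (f24_rels w (List.mem_of_mem_take hw)),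
    Even.neg_one_pow (Nat.even_iff.2 ((by decide +kernel : ∀ w ∈ r79, w.length % 2 = 0) w hw)), one_mul]
theorem scP_apply {g : Nat} (hg : g < 12) (x : Nat × ZMod 3) : scP g x = scAct g x := by
  rw [scP, dif_pos (show Function.Involutive (scAct g) from sc_rel ((by decide +kernel : ∀ g < 12, [g, g] ∈ r79) g hg))]; rfl
def scPs : List (Equiv.Perm (Nat × ZMod 3)) := (List.range 12).map scP
theorem scPs_getD {g : Nat} (hg : g < 12) : scPs.getD g 1 = scP g := by
  rw [List.getD_eq_getElem _ _ (by simpa [scPs] using hg)]; simp [scPs]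
theorem scPs_ev {w : List Nat} (hw : ∀ i ∈ w, i < 12) (x : Nat × ZMod 3) : ev scPs w x = scActW w x := by
  induction w with
  | nil => rfl
  | cons a t ih =>
    rw [List.forall_mem_cons] at hw
    rw [ev_cons, Equiv.Perm.mul_apply, ih hw.2, scPs_getD hw.1, scP_apply hw.1]; rfl
theorem sc_exists : ∃ (Γ : Type) (_ : Group Γ) (_ : Finite Γ) (σ : Γ →* sgn24.ker), IsStemExtension σ ∧
    Nonempty (σ.ker ≃* Multiplicative (ZMod 3)) := by
  have hl : x24.length = scPs.length := rfl
  have r1 : ev x24 scRho = 1 := f24_rels _ (by decide +kernel)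
  have k : ∀ j a, ev scPs scRho (j, a) = (j, (if j < 306936 then 1 else 0) + a) := fun j a => by
    rw [scPs_ev (by decide +kernel), sc_rho, sc_fix r1]
  refine sc_stem (MonoidHom.fst F24 _) (ys := x24.zip scPs) rfl (fun w hw => ?_) (List.map_fst_zip hl.le) (fun y hy => ?_) ?_ ?_
  · rw [ev_zip hl, f24_rels w (List.mem_of_mem_take hw)]
    refine Prod.ext rfl (Equiv.ext fun x => ?_)
    exact (scPs_ev ((by decide +kernel : ∀ w ∈ r79, ∀ i ∈ w, i < 12) w hw) x).trans (sc_rel hw x)
  · obtain ⟨g, hg, e⟩ := List.mem_map.1 (List.of_mem_zip (a := y.1) (b := y.2) hy).2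
    rw [List.mem_range] at hg
    rw [ev_zip hl, r1, eq_inv_iff_mul_eq_one, mul_assoc, mul_assoc, mul_eq_one_iff_inv_eq, inv_eq_iff_mul_eq_one, ← mul_assoc,
      ← mul_assoc, mul_assoc _ _ (_, _), ← eq_inv_iff_mul_eq_one, mul_inv_rev, inv_inv, eq_inv_mul_iff_mul_eq]
    refine Prod.ext (by simp) (Equiv.ext fun x => ?_)
    obtain ⟨j, a⟩ := x
    simp only [Prod.snd_mul, Equiv.Perm.mul_apply, ← e, scP_apply hg, k, scAct]
    have : fnW t24.Ns [g] j < 306936 ↔ j < 306936 := ⟨fun h => by
      by_contra n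
      rw [fnW_ge t24M.ok _ (not_lt.1 n)] at h
      exact n h, fnW_lt t24M.ok _⟩
    simp only [this]
    exact Prod.ext rfl (by ring)
  · rw [ev_zip hl, r1]
    refine Prod.ext (by simp) (Equiv.ext fun x => ?_)
    obtain ⟨j, a⟩ := x
    simp only [Prod.snd_mul, pow_succ, pow_zero, one_mul, Equiv.Perm.mul_apply, k]
    refine Prod.ext rfl ?_
    change _ = a
    split_ifs
    · rw [← add_assoc, ← add_assoc, show (1 + 1 + 1 : ZMod 3) = 0 by decide, zero_add]
    · simp
  · rw [ev_zip hl]
    intro e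
    have := k 0 0
    rw [show ev scPs scRho = 1 from congrArg Prod.snd e] at this
    exact absurd this (by decide)
end
end H27
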