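import Cfsg.Agent.H28.B22
import Cfsg.Prelude.Def_Spor_M
/-! The spider relation implies the other relations of `Y555`. -/
set_option maxRecDepth 100000
set_option Elab.async false
namespace H27
open H28 Cfsg
noncomputable section
universe u
section
variable {G : Type*} [Group G]
theorem ys_zero {t A B g h k l k' l' : G} (t2 : t * t = 1) (LA : t * (A * t * A⁻¹) * (A⁻¹ * t * A) = 1)
    (LB : t * (B * t * B⁻¹) * (B⁻¹ * t * B) = 1) (Lg : t * (g * t * g⁻¹) * (g⁻¹ * t * g) = 1)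
    (Lh : t * (h * t * h⁻¹) * (h⁻¹ * t * h) = 1) (e1 : A * B = g * k) (e2 : A⁻¹ * B⁻¹ = g⁻¹ * k') (e3 : A * B⁻¹ = h * l)
    (e4 : A⁻¹ * B = h⁻¹ * l') (c1 : Commute k t) (c2 : Commute k' t) (c3 : Commute l t) (c4 : Commute l' t) : t = 1 := by
  have sq : ∀ x : G, x * t * x⁻¹ * (x * t * x⁻¹) = 1 := fun x => by rw [conj_mul, t2, mul_one, mul_inv_cancel]
  have ck : ∀ x y : G, Commute y t → x * y * t * (x * y)⁻¹ = x * t * x⁻¹ := fun x y c => by
    rw [show x * y * t * (x * y)⁻¹ = x * (y * t * y⁻¹) * x⁻¹ by group, conj_eq_iff_commute.2 c]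
  have L : ∀ x : G, t * (x * t * x⁻¹) * (x⁻¹ * t * x) = 1 → x⁻¹ * t * x⁻¹⁻¹ = t * (x * t * x⁻¹) ∧ Commute t (x * t * x⁻¹) := fun x e => by
    have a := sq x⁻¹
    rw [inv_inv] at a ⊢
    have b : x⁻¹ * t * x = t * (x * t * x⁻¹) := by rw [eq_inv_of_mul_eq_one_left e, inv_eq_of_mul_eq_one_right a]
    exact ⟨b, commute_of_sq t2 (sq x) (by rw [pow_two, ← b, a])⟩
  have M2 : A * t * A⁻¹ * (A * B * t * (A * B)⁻¹) * (A * B⁻¹ * t * (A * B⁻¹)⁻¹) = 1 := by
    calc _ = A * (t * (B * t * B⁻¹) * (B⁻¹ * t * B)) * A⁻¹ := by group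
      _ = 1 := by rw [LB, mul_one, mul_inv_cancel]
  have M3 : A⁻¹ * t * A⁻¹⁻¹ * (A⁻¹ * B * t * (A⁻¹ * B)⁻¹) * (A⁻¹ * B⁻¹ * t * (A⁻¹ * B⁻¹)⁻¹) = 1 := by
    calc _ = A⁻¹ * (t * (B * t * B⁻¹) * (B⁻¹ * t * B)) * A := by group
      _ = 1 := by rw [LB, mul_one, inv_mul_cancel]
  rw [e1, e3, ck _ _ c1, ck _ _ c3] at M2
  rw [e2, e4, ck _ _ c2, ck _ _ c4, (L A LA).1, (L g Lg).1, (L h Lh).1] at M3
  have s1 := sq A
  have s2 := sq g
  have s3 := sq h
  have d1 := (L A LA).2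
  have d3 := (L h Lh).2
  generalize A * t * A⁻¹ = p at *
  generalize g * t * g⁻¹ = q at *
  generalize h * t * h⁻¹ = r at *
  have : r * q = p := by
    rw [mul_assoc] at M2
    rw [eq_inv_of_mul_eq_one_left M2, mul_inv_rev, inv_eq_of_mul_eq_one_right s2, inv_eq_of_mul_eq_one_right s3]
  rwa [mul_assoc, mul_assoc t r, ← mul_assoc r, ← d3.eq, mul_assoc t r, ← mul_assoc t t, t2, one_mul, this, mul_assoc, s1,
    mul_one] at M3
theorem ys_line {t A : G} (h1 : (t * A) ^ 3 = 1) (h2 : A ^ 3 = 1) : t * (A * t * A⁻¹) * (A⁻¹ * t * A) = 1 := by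
  rw [← h1, show t * (A * t * A⁻¹) * (A⁻¹ * t * A) = t * A * t * (A ^ 3)⁻¹ * A * t * A by group, h2]
  simp [pow_succ, mul_assoc]
theorem ys_line_cj {t A c : G} (h : t * (A * t * A⁻¹) * (A⁻¹ * t * A) = 1) (hc : Commute c t) :
    t * (c * A * c⁻¹ * t * (c * A * c⁻¹)⁻¹) * ((c * A * c⁻¹)⁻¹ * t * (c * A * c⁻¹)) = 1 := by
  have := congrArg (fun x => c * x * c⁻¹) h
  simp only [mul_one, mul_inv_cancel] at this
  rw [← this]
  conv_lhs => rw [← conj_eq_iff_commute.2 hc]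
  group
theorem ys_rot {X : List G} {R R' : List (List Nat)} (r : Rels X R)
    (h : ∀ w ∈ R', ∃ v ∈ R, ∃ k ∈ [0, 1, 3, 6], w = v.drop k ++ v.take k) : Rels X R' := fun w hw => by
  obtain ⟨v, hv, k, -, rfl⟩ := h w hw
  have := r v hv
  rw [← List.take_append_drop k v, ev_append] at this
  rw [ev_append, mul_eq_one_comm.1 this]
theorem ys_mul {X : List G} {z : G} (hz : ∀ i, Commute z (X.getD i 1)) {w : List Nat} (h : ∀ i ∈ w, i < X.length) :
    ev (X.map (· * z)) w = ev X w * z ^ w.length := by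
  induction w with
  | nil => simp [ev_nil]
  | cons i w ih =>
    rw [List.forall_mem_cons] at h
    rw [ev_cons, ev_cons, ih h.2, List.getD_eq_getElem _ _ h.1, List.getD_eq_getElem _ _ (by simpa using h.1), List.getElem_map,
      List.length_cons, pow_succ', mul_assoc, mul_assoc, ← mul_assoc z, (commute_ev fun i _ => hz i).eq, mul_assoc]
theorem ys_succ (a : G) (X : List G) (w : List Nat) : ev (a :: X) (w.map (· + 1)) = ev X w := by
  induction w with
  | nil => rfl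
  | cons i w ih => rw [List.map_cons, ev_cons, ev_cons, ih]; rfl
end
def ysF1 : List Nat := pwW 9 [2, 3, 1, 6, 4, 0, 5]
def ysF2 : List Nat := pwW 9 [2, 3, 6, 1, 4, 7, 5]
def ysU : List Nat := pwW 9 [5, 4, 3, 2, 6, 7, 1]
theorem ys_i1 : Impl.{u} 8 y322_R [cat ysF1 ysF1, cat ysF1 ysF2, cat ysF1 ysU] :=
  y322_univ.par (k := 8) (k' := 8) (ds := []) 10 [] (by decide +kernel)
theorem ys_i2 : Impl.{u} 8 y322_R (mapL (fun i => pwW 2 (cat ysF1 [i])) [0, 1, 2, 3]) :=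
  y322_univ.par (k := 8) (k' := 8) (ds := []) 10 [] (by decide +kernel)
theorem ys_i3 : Impl.{u} 8 y322_R (mapL (fun i => pwW 2 (cat ysF1 [i])) [4, 5, 6, 7]) :=
  y322_univ.par (k := 8) (k' := 8) (ds := []) 10 [] (by decide +kernel)
theorem ys322 {G : Type} [Group G] {X : List G} {f : List (List Nat)} (hl : f.length = 8) (r : Rels X (expL f y322_R)) :
    ev X (expand f ysF1) * ev X (expand f ysF1) = 1 ∧ ev X (expand f ysF2) = ev X (expand f ysF1) ∧
    ev X (expand f ysU) = ev X (expand f ysF1) ∧ ∀ i < 8, Commute (ev X (expand f ysF1)) (ev X (expand f [i])) := by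
  rw [rels_expL] at r
  simp only [← ev_expand]
  have hl' : (f.map (ev X)).length = 8 := by simpa using hl
  generalize f.map (ev X) = Y at r hl'
  have a := ys_i1 _ _ hl' r
  have hs := sq_of_rels r (hl' ▸ by decide +kernel)
  simp only [Rels, List.forall_mem_cons, cat_eq, ev_append] at a
  refine ⟨a.1, mul_left_cancel (a.2.1.trans a.1.symm), mul_left_cancel (a.2.2.1.trans a.1.symm), fun i hi => ?_⟩
  rw [ev_single]
  exact ((ys_i2 _ _ hl' r).append (ys_i3 _ _ hl' r)).comm hs a.1 ((by decide +kernel : ∀ i < 8, pwW 2 (cat ysF1 [i]) ∈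
    mapL (fun i => pwW 2 (cat ysF1 [i])) [0, 1, 2, 3] ++ mapL (fun i => pwW 2 (cat ysF1 [i])) [4, 5, 6, 7]) i hi)
def ysR : List (List Nat) := fi23_R.take 56 ++ ([10, 10] :: pwW 3 [7, 10] :: mapL (fun i => pwW 2 [i, 10]) [0, 1, 2, 3, 4, 5, 6, 8, 9])
def ysW1 : List Nat := pwW 9 [3, 4, 2, 8, 5, 1, 6]
def ysW2 : List Nat := pwW 9 [3, 4, 8, 2, 5, 9, 6]
def ysA : List Nat := ysW1 ++ [7]
def ysc : List Nat := [6, 5, 4, 3, 8, 9, 2, 3, 8, 1, 2, 3, 4, 5, 6]
def ysc1 : List Nat := [3, 8, 6, 5, 2, 3, 4, 1, 2, 3, 8, 9, 5, 6, 4, 5, 3, 4, 2, 3, 8, 1, 2, 3, 4, 5, 6]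
def ysc2 : List Nat := [0, 1, 2, 3, 8, 9, 4, 3, 8, 5, 6, 4, 5, 3, 4, 2, 3, 8, 9, 1, 2, 3, 8, 0, 1, 2, 3, 4, 5, 6]
def ysk1 : List Nat := [1, 2, 1, 2, 3, 8, 9, 4, 3, 8, 5, 4, 3, 2, 3, 4, 5, 8, 3, 4, 9, 8, 3, 2, 1, 3, 8, 9, 4, 3, 8, 5, 4, 3, 2, 3, 4, 5, 8,
  3, 4, 9, 8, 3]
def ysk2 : List Nat := [1, 2, 3, 8, 9, 4, 3, 8, 5, 4, 3, 2, 1, 2, 3, 4, 5, 8, 3, 4, 9, 8, 3, 2, 3, 8, 9, 4, 3, 8, 5, 4, 3, 2, 3, 4, 5, 8, 3,
  4, 9, 8, 3, 2]
def ysE1 : List Nat := revW (ysc1 ++ ysA ++ revW ysc1 ++ ysk1) ++ (ysA ++ (ysc ++ ysA ++ revW ysc))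
def ysE2 : List Nat := revW (ysc2 ++ ysA ++ revW ysc2 ++ ysk2) ++ (ysA ++ revW (ysc ++ ysA ++ revW ysc))
theorem ys_c0 : t23.oneChk ((pwW 3 ysA).map (· + 1)) = true := by decide +kernel
theorem ys_c1 : t23.oneChk (ysE1.map (· + 1)) = true := by decide +kernel
theorem ys_c2 : t23.oneChk (ysE2.map (· + 1)) = true := by decide +kernel
theorem ys532 {G : Type} [Group G] {X : List G} (hl : X.length = 11) (r : Rels X ysR) : Rels X [10 :: revW ysW1, 10 :: revW ysW2] := by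
  have hs := sq_of_rels r (hl ▸ by decide +kernel)
  obtain ⟨u1, -, u3, u4⟩ := ys322 (f := [[9], [8], [3], [2], [1], [0], [4], [5]]) rfl (ys_rot r (by decide +kernel))
  obtain ⟨f1, f2, -, f4⟩ := ys322 (f := [[1], [2], [3], [4], [5], [6], [8], [9]]) rfl (ys_rot r (by decide +kernel))
  have cu : ∀ i, Commute (ev X (expand [[9], [8], [3], [2], [1], [0], [4], [5]] ysF1)) (X.getD i 1) := fun i => by
    rcases lt_or_ge i 11 with hi | hi
    · rcases (by decide +kernel : ∀ i < 11, i = 5 ∨ (∃ j < 8, expand [[9], [8], [3], [2], [1], [0], [4], [5]] [j] = [i]) ∨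
        ∀ j ∈ expand [[9], [8], [3], [2], [1], [0], [4], [5]] ysF1, cmR ysR i j) i hi with rfl | ⟨j, hj, e⟩ | e
      · exact ev_single X 5 ▸ u4 7 (by decide)
      · exact ev_single X i ▸ e ▸ u4 j hj
      · exact (commute_ev fun j hj => r.cmR hs (e j hj)).symm
    · rw [List.getD_eq_default _ _ (hl ▸ hi)]; exact Commute.one_right _
  rw [show expand _ ysU = pwW 9 [0, 1, 2, 3, 4, 5, 8] by decide +kernel] at u3
  rw [show expand _ ysF2 = ysW2 by decide +kernel] at f2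
  rw [show expand _ ysF1 = ysW1 by decide +kernel] at f1 f2 f4
  generalize ev X (expand _ ysF1) = u at u1 u3 cu
  have l10 : (X.take 10).length = 10 := by simp [hl]
  have tk : ∀ w : List Nat, (∀ i ∈ w, i < 10) → ev ((X.take 10).map (· * u)) w = ev X w * u ^ w.length := fun w hw => by
    have hw' : ∀ i ∈ w, i < (X.take 10).length := by rwa [l10]
    rw [ys_mul (fun i => ?_) hw', ← ev_append_left (X.take 10) (X.drop 10) hw', List.take_append_drop]
    rcases getD_mem_or (X.take 10) i with h | h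
    · obtain ⟨j, hj, e⟩ := List.getElem_of_mem (List.mem_of_mem_take h)
      rw [← e, ← List.getD_eq_getElem _ 1 hj]; exact cu j
    · rw [h]; exact Commute.one_right _
  have ue : ∀ n, n % 2 = 0 → u ^ n = 1 := fun n hn => by rw [← Nat.div_add_mod n 2, hn, add_zero, pow_mul, pow_two, u1, one_pow]
  obtain ⟨π, hπ⟩ := fi23B.hom (ys := (X.take 10).map (· * u)) ((List.length_map _).trans l10) fun w hw => by
    obtain ⟨k1, k2⟩ := (by decide +kernel : ∀ w ∈ fi23_R, (∀ i ∈ w, i < 10) ∧ (w = pwW 9 [0, 1, 2, 3, 4, 5, 8] ∨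
      w.length % 2 = 0 ∧ w ∈ ysR)) w hw
    rw [tk w k1]
    rcases k2 with rfl | k2
    · rw [u3, ← pow_succ', ue _ (by decide +kernel)]
    · rw [r w k2.2, ue _ k2.1, one_mul]
  have fi : ∀ w : List Nat, (∀ i ∈ w, i < 10) ∧ w.length % 2 = 0 → t23.oneChk (w.map (· + 1)) = true → ev X w = 1 := fun w hw e => by
    have := fm23.one _ e
    rw [x23, ys_succ] at this
    have k := tk w hw.1
    rw [← hπ, ev_map, show ev (gensP _ _ fi23L) w = 1 from this, map_one, ue _ hw.2, mul_one] at k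
    exact k.symm
  have e0 := fi _ (by decide +kernel) ys_c0
  have e1 := fi _ (by decide +kernel) ys_c1
  have e2 := fi _ (by decide +kernel) ys_c2
  have cf : ∀ w : List Nat, (∀ i ∈ w, i < 10 ∧ i ≠ 7) → Commute (ev X ysW1) (ev X w) ∧ Commute (X.getD 10 1) (ev X w) := fun w hw =>
    ⟨commute_ev fun i hi => by
      rcases (by decide +kernel : ∀ i < 10, i ≠ 7 → (∃ j < 8, expand [[1], [2], [3], [4], [5], [6], [8], [9]] [j] = [i]) ∨
        ∀ j ∈ ysW2, cmR ysR i j) i (hw i hi).1 (hw i hi).2 with ⟨j, hj, e⟩ | e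
      · exact ev_single X i ▸ e ▸ f4 j hj
      · exact f2 ▸ (commute_ev fun j hj => r.cmR hs (e j hj)).symm,
    commute_ev fun i hi => r.cmR hs ((by decide +kernel : ∀ i < 10, i ≠ 7 → cmR ysR 10 i) i (hw i hi).1 (hw i hi).2)⟩
  have e3 := pow_swap_eq_one (show (X.getD 7 1 * X.getD 10 1) ^ 3 = 1 by
    have := r (pwW 3 [7, 10]) (by decide +kernel)
    rwa [ev_pwW, ev_cons, ev_single] at this)
  simp only [ysE1, ysE2, ysA, ev_pwW, ev_append, ev_revW hs, ev_single, inv_mul_eq_one] at e0 e1 e2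
  have c0 := (cf ysW1 (by decide +kernel)).2
  have c1 := cf ysc (by decide +kernel)
  have c2 := cf ysc1 (by decide +kernel)
  have c3 := cf ysc2 (by decide +kernel)
  have c4 := cf ysk1 (by decide +kernel)
  have c5 := cf ysk2 (by decide +kernel)
  have s7 := sq_getD hs 7
  have s10 := sq_getD hs 10
  simp only [Rels, List.forall_mem_cons, ev_cons, ev_revW hs, f2, List.not_mem_nil, false_imp_iff, implies_true, and_true, and_self]
  generalize ev X ysW1 = f at *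
  generalize X.getD 10 1 = y at *
  generalize X.getD 7 1 = e at *
  have fi := inv_eq_of_mul_eq_one_right f1
  have L := ys_line (t := y * f) (A := f * e) (by rw [mul_assoc, ← mul_assoc f, f1, one_mul, e3]) e0
  have fA : f * (f * e) * f⁻¹ = (f * e)⁻¹ := by
    rw [← mul_assoc, f1, one_mul, mul_inv_rev, inv_eq_of_mul_eq_one_right s7]
  have fc : ∀ c, Commute f c → f * (c * (f * e) * c⁻¹) * f⁻¹ = (c * (f * e) * c⁻¹)⁻¹ := fun c h => by
    rw [← conj_mul, ← conj_mul, fA, conj_eq_iff_commute.2 h, conj_eq_iff_commute.2 h.inv_right]; group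
  have ct : ∀ {c}, Commute f c ∧ Commute y c → Commute c (y * f) := fun h => h.2.symm.mul_right h.1.symm
  rw [fi]
  refine ys_zero ((pow_two _).symm.trans (sq_of_commute s10 f1 c0)) L (ys_line_cj L (ct c1)) (ys_line_cj L (ct c2)) (ys_line_cj L (ct c3)) e1.symm ?_ e2.symm ?_
    (ct c4) (ct c4) (ct c5) (ct c5)
  · rw [← fA, ← fc _ c1.1, conj_mul, ← e1, ← conj_mul, fc _ c2.1, conj_eq_iff_commute.2 c4.1]
  · rw [← fA, ← inv_inv (ev X ysc * (f * e) * _), ← fc _ c1.1, conj_inv, conj_mul, ← e2, ← conj_mul, fc _ c3.1,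
      conj_eq_iff_commute.2 c5.1]

def ysCode (p : Spor.Bimonster.Gen × Bool) : Nat := match p with
  | (.a, _) => 0 | (.b1, _) => 1 | (.c1, _) => 2 | (.d1, _) => 3 | (.e1, _) => 4 | (.f1, _) => 5
  | (.b2, _) => 6 | (.c2, _) => 7 | (.d2, _) => 8 | (.e2, _) => 9 | (.f2, _) => 10
  | (.b3, _) => 11 | (.c3, _) => 12 | (.d3, _) => 13 | (.e3, _) => 14 | (.f3, _) => 15
def ysN : List Spor.Bimonster.Gen := [.a, .b1, .c1, .d1, .e1, .f1, .b2, .c2, .d2, .e2, .f2, .b3, .c3, .d3, .e3, .f3]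
open Spor.Bimonster in
abbrev ysS : List (FreeGroup Spor.Bimonster.Gen) := [(a * b1 * c1 * a * b2 * c2 * a * b3 * c3) ^ 10]
theorem ysB : Brg Spor.Bimonster.edges ysS ysCode ysN ysN (ysN.map fun x => (x, true))
    (relW Spor.Bimonster.edges ysS ysCode ysN ysN) := ⟨fun x => by cases x <;> simp [ysN], by decide +kernel, rfl⟩
theorem y555 : ∀ r ∈ Spor.Bimonster.extra,
    PresentedGroup.mk (Spor.coxRelators Spor.Bimonster.edges ∪ {r' | r' ∈ ysS}) r = 1 := fun r hr => by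
  rw [ysB.mk_eq]
  have r0 := ysB.rels
  generalize gensP Spor.Bimonster.edges ysS _ = X at r0
  have k : ∀ f : List (List Nat), f.length = 11 → Rels X (expL f ysR) → Rels X (expL f [10 :: revW ysW1, 10 :: revW ysW2]) :=
    fun f hf h => rels_expL.2 (ys532 (by simpa using hf) (rels_expL.1 h))
  have k1 := k [[13], [12], [11], [0], [1], [2], [3], [4], [6], [7], [5]] rfl (ys_rot r0 (by decide +kernel))
  have k2 := k [[3], [2], [1], [0], [6], [7], [8], [9], [11], [12], [10]] rfl (ys_rot r0 (by decide +kernel))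
  have k3 := k [[8], [7], [6], [0], [11], [12], [13], [14], [1], [2], [15]] rfl (ys_rot r0 (by decide +kernel))
  refine (r0.append (k1.append (k2.append k3))) _ (List.forall_mem_map.1 (by decide +kernel :
    ∀ w ∈ Spor.Bimonster.extra.map (cw ysCode), w ∈ _) r hr)
end
end H27
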